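import Cfsg.Agent.H23.Graph
import Cfsg.Agent.H23.ChkD4
import Cfsg.Agent.H46.OSDefs

/-!
# OS-D4T (helper22, for helper46's S2159): a graph automorphism of `D₄(F)` for a transposition of the diagram

The transposition exchanges the outer nodes `2` and `3` (node `1` is the centre).  The signed permutation matrix
`e_s ↦ e_{ρ s}`, `h_i ↦ h_{σ i}` has all signs `+1` for the structure constants of `chevD4`.
-/

set_option autoImplicit false
set_option maxRecDepth 100000

namespace Cfsg.Agent.H22.OS

open Cfsg Cfsg.Lie Cfsg.Agent.H23 Cfsg.Agent.H46.OS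

universe u

def sigD4t : List ℕ := [0, 1, 3, 2]
def rhoD4t : ℕ := 566073054096128939321680348723185459246130506873807503616
def gamD4t : ℕ := 0

theorem graph_D4t_conj : ∀ s < chevD4.nroots, checkCols false [(pEnt chevD4.nroots chevD4.rank rhoD4t gamD4t sigD4t, pone), compileL chevD4 tblD4 (s, pT)]
    [compileL chevD4 tblD4 (rlk rhoD4t s, [(etaBit gamD4t s, 1, 0)]), (pEnt chevD4.nroots chevD4.rank rhoD4t gamD4t sigD4t, pone)]
    (chevD4.nroots + chevD4.rank) = true := by decide +kernel

theorem graph_D4t_inv1 : checkCols false [(pEnt chevD4.nroots chevD4.rank rhoD4t gamD4t sigD4t, pone), (pEnt chevD4.nroots chevD4.rank rhoD4t gamD4t sigD4t, pone)] [] (chevD4.nroots + chevD4.rank) = true := by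
  decide +kernel

theorem graph_D4t_rho_lt : ∀ s < chevD4.nroots, rlk rhoD4t s < chevD4.nroots := by decide +kernel

theorem graph_D4t_rhoI : ∀ r < chevD4.nroots, rlk rhoD4t r < chevD4.nroots ∧ rlk rhoD4t (rlk rhoD4t r) = r := by
  decide +kernel

theorem graph_D4t_simple : ∀ i < chevD4.rank,
    (rlk rhoD4t (chevD4.simple i) = chevD4.simple (sigD4t.getD i 0) ∧ etaBit gamD4t (chevD4.simple i) = 1) ∧
    (rlk rhoD4t (chevD4.neg (chevD4.simple i)) = chevD4.neg (chevD4.simple (sigD4t.getD i 0)) ∧
      etaBit gamD4t (chevD4.neg (chevD4.simple i)) = 1) := by decide +kernel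

theorem graph_D4t_simple_lt : ∀ i < chevD4.rank, chevD4.simple i < chevD4.nroots ∧ chevD4.neg (chevD4.simple i) < chevD4.nroots := by
  decide +kernel

/-- The checks for the graph automorphism `[0, 1, 3, 2]` of type D4 (an involution: it is its own inverse). -/
theorem graphOK_D4t : GraphOK chevD4 tblD4 sigD4t sigD4t rhoD4t gamD4t rhoD4t gamD4t where
  conj := graph_D4t_conj
  inv1 := graph_D4t_inv1
  inv2 := graph_D4t_inv1
  rho_lt := graph_D4t_rho_lt
  rhoI := graph_D4t_rhoI
  simple := graph_D4t_simple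
  simple_lt := graph_D4t_simple_lt

/-- The transposition `(2 3)` of the nodes of the `D₄` diagram. -/
def piD4t : Equiv.Perm (Fin chevD4.rank) := Equiv.swap ⟨2, by decide⟩ ⟨3, by decide⟩

theorem piD4t_val : ∀ i : Fin chevD4.rank, sigD4t.getD i.val 0 = (piD4t i).val := by decide

theorem piD4t_ne_one : piD4t ≠ 1 := by
  intro h
  have h2 := congrArg (fun p : Equiv.Perm (Fin chevD4.rank) => (p ⟨2, by decide⟩).val) h
  revert h2
  decide

theorem piD4t_mul_self : piD4t * piD4t = 1 := Equiv.swap_mul_self _ _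

theorem piD4t_sym : chevD4.IsDiagramSymmetry piD4t := by
  unfold ChevalleyDatum.IsDiagramSymmetry
  decide

/-- **OS-D4T**: `D₄(F)` has a graph automorphism for a transposition of the diagram. -/
theorem d4T : StD4T.{u} := by
  intro F _
  obtain ⟨α, hα⟩ := graph_aut chk_D4.tblOK graphOK_D4t F
  refine ⟨piD4t, α, ⟨piD4t_ne_one, piD4t_mul_self⟩, piD4t_sym, ?_⟩
  intro g i t
  have h := hα g i.val t i.isLt
  rw [piD4t_val i] at h
  exact h

example : Cfsg.Agent.H46.OS.StD4T.{u} := d4T.{u}

end Cfsg.Agent.H22.OS
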