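import Cfsg.Agent.S1031
import Cfsg.Agent.S1023
import Cfsg.Agent.H22.ChevData
import Cfsg.Prelude.Def_ChevAutomorphisms

/-!
Graph automorphisms and root elements: if an automorphism of the Chevalley group sends the root elements of
the fundamental roots and their negatives as a diagram symmetry prescribes, then it sends every root element
to a root element of the permuted root, up to a sign.  The proof conjugates by the elements `n_p`.
-/

set_option autoImplicit false

namespace Cfsg.Agent.H22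

open Cfsg.Lie

/-- coefficient of the coroot of `s` at the `k`-th fundamental coroot -/
def crt (D : ChevalleyDatum) (s k : ℕ) : ℤ := (D.coroot.getD s #[]).getD k 0

/-- The table facts used by the argument. -/
structure GraphFacts (D : ChevalleyDatum) : Prop where
  inj : ∀ s < D.nroots, ∀ s' < D.nroots, (∀ k < D.rank, crt D s k = crt D s' k) → s = s'
  refl_lt : ∀ i < D.rank, ∀ s < D.nroots, D.reflectRoot i s < D.nroots
  refl_crt : ∀ i < D.rank, ∀ s < D.nroots, ∀ k < D.rank,
      crt D (D.reflectRoot i s) k = crt D s k - (if k = i then D.cartan i s else 0)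
  cartan_lin : ∀ i < D.rank, ∀ s < D.nroots,
      D.cartan i s = ∑ k : Fin D.rank, crt D s k * D.cartan i (D.simple k)
  cartan_bond : ∀ i < D.rank, ∀ k < D.rank, i ≠ k → D.cartan i (D.simple k) = - D.bonds i k
  cartan_diag : ∀ i < D.rank, D.cartan i (D.simple i) = 2
  simple_lt : ∀ i < D.rank, D.simple i < D.nroots
  simple_crt : ∀ i < D.rank, ∀ k < D.rank, crt D (D.simple i) k = if k = i then 1 else 0

/-! ### Orbits of the fundamental roots under the fundamental reflections -/

/-- the fundamental roots, as a sublist of the list of all roots -/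
def reach0 (D : ChevalleyDatum) : List ℕ :=
  (List.range D.nroots).filter fun r => (List.range D.rank).any fun i => D.simple i == r

/-- one more reflection -/
def reachStep (D : ChevalleyDatum) (L : List ℕ) : List ℕ :=
  (List.range D.nroots).filter fun r => L.contains r || (List.range D.rank).any fun i =>
    L.contains (D.reflectRoot i r) && (D.reflectRoot i (D.reflectRoot i r) == r)

/-- the roots reached from the fundamental roots by at most `k` fundamental reflections -/
def reachN (D : ChevalleyDatum) : ℕ → List ℕ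
  | 0 => reach0 D
  | k + 1 => reachStep D (reachN D k)

/-- every root is reached after `K` steps -/
def orbChk (D : ChevalleyDatum) (K : ℕ) : Bool :=
  (List.range D.nroots).all fun r => (reachN D K).contains r

theorem reachN_spec (D : ChevalleyDatum) (P : ℕ → Prop) (h0 : ∀ i < D.rank, P (D.simple i))
    (h1 : ∀ i < D.rank, ∀ s < D.nroots, P s → P (D.reflectRoot i s)) :
    ∀ k r, r ∈ reachN D k → r < D.nroots ∧ P r := by
  intro k
  induction k with
  | zero =>
    intro r hr
    simp only [reachN, reach0, List.mem_filter, List.mem_range, List.any_eq_true, beq_iff_eq] at hr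
    obtain ⟨hr, i, hi, rfl⟩ := hr
    exact ⟨hr, h0 i hi⟩
  | succ k ih =>
    intro r hr
    simp only [reachN, reachStep, List.mem_filter, List.mem_range, Bool.or_eq_true,
      List.contains_iff_mem, List.any_eq_true, Bool.and_eq_true, beq_iff_eq] at hr
    obtain ⟨hr, h | ⟨i, hi, hm, he⟩⟩ := hr
    · exact ih r h
    · refine ⟨hr, ?_⟩
      have := ih _ hm
      rw [← he]
      exact h1 i hi _ this.1 this.2

/-- induction along the orbits -/
theorem orbit_induction (D : ChevalleyDatum) (K : ℕ) (h : orbChk D K = true) (P : ℕ → Prop)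
    (h0 : ∀ i < D.rank, P (D.simple i))
    (h1 : ∀ i < D.rank, ∀ s < D.nroots, P s → P (D.reflectRoot i s)) :
    ∀ r < D.nroots, P r := by
  intro r hr
  simp only [orbChk, List.all_eq_true, List.mem_range, List.contains_iff_mem] at h
  exact (reachN_spec D P h0 h1 K r (h r hr)).2

/-! ### The permuted root -/

variable {D : ChevalleyDatum}

/-- `s'` is the root whose coroot coefficients are those of `s` permuted by `π` -/
def PermRel (D : ChevalleyDatum) (π : Equiv.Perm (Fin D.rank)) (s s' : ℕ) : Prop :=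
  s' < D.nroots ∧ ∀ k : Fin D.rank, crt D s' (π k) = crt D s k

theorem permRoot_eq (G : GraphFacts D) (π : Equiv.Perm (Fin D.rank)) (s s' : ℕ)
    (h : PermRel D π s s') : D.permRoot π s = s' := by
  obtain ⟨hs', h⟩ := h
  unfold ChevalleyDatum.permRoot
  have hp : (fun x => (List.finRange D.rank).all fun i =>
      (D.coroot.getD x #[]).getD (π i).val 0 == (D.coroot.getD s #[]).getD i.val 0) s' = true := by
    simp only [List.all_eq_true, beq_iff_eq]
    intro k _
    exact h k
  have hsome : ((List.range D.nroots).find? fun x => (List.finRange D.rank).all fun i =>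
      (D.coroot.getD x #[]).getD (π i).val 0 == (D.coroot.getD s #[]).getD i.val 0).isSome = true := by
    rw [List.find?_isSome]
    exact ⟨s', List.mem_range.mpr hs', hp⟩
  obtain ⟨y, hy⟩ := Option.isSome_iff_exists.mp hsome
  rw [hy, Option.getD_some]
  have hy1 := List.find?_some hy
  have hy2 := List.mem_range.mp (List.mem_of_find?_eq_some hy)
  simp only [List.all_eq_true, beq_iff_eq] at hy1
  apply G.inj y hy2 s' hs'
  intro k hk
  have e : (π (π.symm ⟨k, hk⟩) : ℕ) = k := by rw [Equiv.apply_symm_apply]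
  have a1 := hy1 (π.symm ⟨k, hk⟩) (List.mem_finRange _)
  have a2 := h (π.symm ⟨k, hk⟩)
  unfold crt at a2 ⊢
  rw [e] at a1 a2
  rw [a1, a2]

theorem permRel_simple (G : GraphFacts D) (π : Equiv.Perm (Fin D.rank)) (i : Fin D.rank) :
    PermRel D π (D.simple i) (D.simple (π i)) := by
  refine ⟨G.simple_lt _ (π i).2, fun k => ?_⟩
  rw [G.simple_crt _ (π i).2 _ (π k).2, G.simple_crt _ i.2 _ k.2]
  by_cases hk : k = i
  · subst hk; simp
  · have h1 : (k : ℕ) ≠ (i : ℕ) := fun h => hk (Fin.ext h)
    have h2 : ((π k : Fin D.rank) : ℕ) ≠ ((π i : Fin D.rank) : ℕ) := fun h =>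
      hk (π.injective (Fin.ext h))
    rw [if_neg h1, if_neg h2]

theorem cartan_perm (G : GraphFacts D) (π : Equiv.Perm (Fin D.rank)) (hπ : D.IsDiagramSymmetry π)
    (i k : Fin D.rank) : D.cartan (π i) (D.simple (π k)) = D.cartan i (D.simple k) := by
  by_cases hk : i = k
  · subst hk
    rw [G.cartan_diag _ (π i).2, G.cartan_diag _ i.2]
  · have h1 : (i : ℕ) ≠ (k : ℕ) := fun h => hk (Fin.ext h)
    have h2 : ((π i : Fin D.rank) : ℕ) ≠ ((π k : Fin D.rank) : ℕ) := fun h =>
      hk (π.injective (Fin.ext h))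
    rw [G.cartan_bond _ (π i).2 _ (π k).2 h2, G.cartan_bond _ i.2 _ k.2 h1, hπ i k hk]

theorem permRel_refl (G : GraphFacts D) (π : Equiv.Perm (Fin D.rank)) (hπ : D.IsDiagramSymmetry π)
    (i : Fin D.rank) (s s' : ℕ) (hs : s < D.nroots) (h : PermRel D π s s') :
    PermRel D π (D.reflectRoot i s) (D.reflectRoot (π i) s') := by
  obtain ⟨hs', h⟩ := h
  refine ⟨G.refl_lt _ (π i).2 _ hs', fun k => ?_⟩
  rw [G.refl_crt _ (π i).2 _ hs' _ (π k).2, G.refl_crt _ i.2 _ hs _ k.2, h k]
  have hc : D.cartan (π i) s' = D.cartan i s := by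
    rw [G.cartan_lin _ (π i).2 _ hs', G.cartan_lin _ i.2 _ hs]
    rw [← Equiv.sum_comp π]
    apply Finset.sum_congr rfl
    intro k _
    rw [h k, cartan_perm G π hπ i k]
  rw [hc]
  by_cases hk : k = i
  · subst hk; simp
  · have h1 : (k : ℕ) ≠ (i : ℕ) := fun h => hk (Fin.ext h)
    have h2 : ((π k : Fin D.rank) : ℕ) ≠ ((π i : Fin D.rank) : ℕ) := fun h =>
      hk (π.injective (Fin.ext h))
    rw [if_neg h1, if_neg h2]

/-! ### Root elements as elements of the group -/

variable {F : Type*} [Field F]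

theorem exists_group_x (hD : D ∈ [chevG2, chevB2, chevD4, chevF4, chevE6, chevE7, chevE8]) (r : ℕ)
    (hr : r < D.nroots) (t : F) :
    ∃ g : ↥(D.group F), ((g : GL D.Idx F) : Matrix D.Idx D.Idx F) = D.x F r t := by
  have a1 : D.x F r t * D.x F r (-t) = 1 := by
    rw [Cfsg.Agent.S1023.result D hD r hr, add_neg_cancel, x_zero]
  have a2 : D.x F r (-t) * D.x F r t = 1 := by
    rw [Cfsg.Agent.S1023.result D hD r hr, neg_add_cancel, x_zero]
  refine ⟨⟨⟨D.x F r t, D.x F r (-t), a1, a2⟩, ?_⟩, rfl⟩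
  apply Subgroup.subset_closure
  exact ⟨⟨r, hr⟩, t, x_eq_xMat D F r hr t⟩

/-- the property carried along the orbits -/
def GraphP (D : ChevalleyDatum) (F : Type*) [Field F] (π : Equiv.Perm (Fin D.rank))
    (φ : ↥(D.group F) ≃* ↥(D.group F)) (s : ℕ) : Prop :=
  ∃ s', PermRel D π s s' ∧ ∃ ε : F, (ε = 1 ∨ ε = -1) ∧ ∀ (g : ↥(D.group F)) (t : F),
    ((g : GL D.Idx F) : Matrix D.Idx D.Idx F) = D.x F s t →
      ((φ g : GL D.Idx F) : Matrix D.Idx D.Idx F) = D.x F s' (ε * t)

theorem graphP_refl (hD : D ∈ [chevG2, chevB2, chevD4, chevF4, chevE6, chevE7, chevE8])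
    (G : GraphFacts D) (π : Equiv.Perm (Fin D.rank)) (hπ : D.IsDiagramSymmetry π)
    (φ : ↥(D.group F) ≃* ↥(D.group F))
    (hφ : ∀ (g : ↥(D.group F)) (i : Fin D.rank) (t : F),
      (((g : GL D.Idx F) : Matrix D.Idx D.Idx F) = D.x F (D.simple i) t →
        ((φ g : GL D.Idx F) : Matrix D.Idx D.Idx F) = D.x F (D.simple (π i)) t) ∧
      (((g : GL D.Idx F) : Matrix D.Idx D.Idx F) = D.x F (D.neg (D.simple i)) t →
        ((φ g : GL D.Idx F) : Matrix D.Idx D.Idx F) = D.x F (D.neg (D.simple (π i))) t))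
    (i : Fin D.rank) (s : ℕ) (hs : s < D.nroots) (h : GraphP D F π φ s) :
    GraphP D F π φ (D.reflectRoot i s) := by
  obtain ⟨s', hrel, ε, hε, hgs⟩ := h
  refine ⟨D.reflectRoot (π i) s', permRel_refl G π hπ i s s' hs hrel, ?_⟩
  obtain ⟨η, hη, hη2⟩ := Cfsg.Agent.S1031.result (F := F) D hD i s i.2 hs
  obtain ⟨η', hη', hη2'⟩ := Cfsg.Agent.S1031.result (F := F) D hD (π i) s' (π i).2 hrel.1
  refine ⟨(η' : F) * (ε * (η : F)), ?_, ?_⟩
  · rcases hη with rfl | rfl <;> rcases hη' with rfl | rfl <;> rcases hε with rfl | rfl <;> simp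
  · intro g t hg
    have hp := G.simple_lt i i.2
    have hnp : D.neg (D.simple i) < D.nroots := neg_lt (tablesCheck_all D hD) _ hp
    obtain ⟨a, ha⟩ := exists_group_x hD (D.simple i) hp (1 : F)
    obtain ⟨b, hb⟩ := exists_group_x hD (D.neg (D.simple i)) hnp (-(1 : F)⁻¹)
    obtain ⟨X, hX⟩ := exists_group_x hD s hs ((η : F) * t)
    obtain ⟨Y, hY⟩ := exists_group_x hD (D.reflectRoot (π i) s')
      (G.refl_lt _ (π i).2 _ hrel.1) ((η' : F) * (ε * ((η : F) * t)))
    have nm : ∀ (j : ℕ) (A B : Matrix D.Idx D.Idx F), A = D.x F (D.simple j) 1 →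
        B = D.x F (D.neg (D.simple j)) (-(1 : F)⁻¹) → A * B * A = D.nMat F (D.simple j) 1 := by
      intro j A B hA hB
      subst hA hB
      simp only [ChevalleyDatum.nMat, ChevalleyDatum.nWord, ChevalleyDatum.wordMat, List.map_cons,
        List.map_nil, List.prod_cons, List.prod_nil, Matrix.mul_one, Matrix.mul_assoc]
    have hN : (((a * b * a : ↥(D.group F)) : GL D.Idx F) : Matrix D.Idx D.Idx F)
        = D.nMat F (D.simple i) 1 := by
      simp only [Subgroup.coe_mul, Units.val_mul]
      exact nm i _ _ ha hb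
    have hφN : (((φ (a * b * a) : ↥(D.group F)) : GL D.Idx F) : Matrix D.Idx D.Idx F)
        = D.nMat F (D.simple (π i)) 1 := by
      simp only [map_mul, Subgroup.coe_mul, Units.val_mul]
      exact nm (π i) _ _ ((hφ a i 1).1 ha) ((hφ b i _).2 hb)
    have hφX := hgs X _ hX
    have hηη : (η : F) * ((η : F) * t) = t := by
      rcases hη with rfl | rfl <;> simp
    have e1 : (a * b * a) * X = g * (a * b * a) := by
      apply Subtype.ext
      apply Units.ext
      simp only [Subgroup.coe_mul, Units.val_mul] at hN ⊢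
      rw [hN, hX, hg, hη2, hηη]
    have e2 : φ (a * b * a) * φ X = Y * φ (a * b * a) := by
      apply Subtype.ext
      apply Units.ext
      rw [Subgroup.coe_mul, Units.val_mul, Subgroup.coe_mul, Units.val_mul, hφN, hφX, hY, hη2']
    have e3 : φ g = Y := by
      have := congrArg φ e1
      rw [map_mul φ (a * b * a) X, map_mul φ g (a * b * a), e2] at this
      exact (mul_right_cancel this).symm
    rw [e3, hY]
    congr 1
    ring

theorem graphP_simple (G : GraphFacts D) (π : Equiv.Perm (Fin D.rank))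
    (φ : ↥(D.group F) ≃* ↥(D.group F))
    (hφ : ∀ (g : ↥(D.group F)) (i : Fin D.rank) (t : F),
      (((g : GL D.Idx F) : Matrix D.Idx D.Idx F) = D.x F (D.simple i) t →
        ((φ g : GL D.Idx F) : Matrix D.Idx D.Idx F) = D.x F (D.simple (π i)) t) ∧
      (((g : GL D.Idx F) : Matrix D.Idx D.Idx F) = D.x F (D.neg (D.simple i)) t →
        ((φ g : GL D.Idx F) : Matrix D.Idx D.Idx F) = D.x F (D.neg (D.simple (π i))) t))
    (i : Fin D.rank) : GraphP D F π φ (D.simple i) := by
  refine ⟨D.simple (π i), permRel_simple G π i, 1, Or.inl rfl, fun g t hg => ?_⟩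
  rw [one_mul]
  exact (hφ g i t).1 hg

/-- the statement, given the table facts -/
theorem graph_signs (hD : D ∈ [chevG2, chevB2, chevD4, chevF4, chevE6, chevE7, chevE8])
    (G : GraphFacts D) (K : ℕ) (hK : orbChk D K = true)
    (π : Equiv.Perm (Fin D.rank)) (hπ : D.IsDiagramSymmetry π)
    (φ : ↥(D.group F) ≃* ↥(D.group F))
    (hφ : ∀ (g : ↥(D.group F)) (i : Fin D.rank) (t : F),
      (((g : GL D.Idx F) : Matrix D.Idx D.Idx F) = D.x F (D.simple i) t →
        ((φ g : GL D.Idx F) : Matrix D.Idx D.Idx F) = D.x F (D.simple (π i)) t) ∧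
      (((g : GL D.Idx F) : Matrix D.Idx D.Idx F) = D.x F (D.neg (D.simple i)) t →
        ((φ g : GL D.Idx F) : Matrix D.Idx D.Idx F) = D.x F (D.neg (D.simple (π i))) t))
    (r : ℕ) (hr : r < D.nroots) :
    ∃ ε : F, (ε = 1 ∨ ε = -1) ∧ ∀ (g : ↥(D.group F)) (t : F),
      ((g : GL D.Idx F) : Matrix D.Idx D.Idx F) = D.x F r t →
        ((φ g : GL D.Idx F) : Matrix D.Idx D.Idx F) = D.x F (D.permRoot π r) (ε * t) := by
  have key : GraphP D F π φ r := by
    refine orbit_induction D K hK (GraphP D F π φ) ?_ ?_ r hr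
    · intro i hi
      exact graphP_simple G π φ hφ ⟨i, hi⟩
    · intro i hi s hs h
      exact graphP_refl hD G π hπ φ hφ ⟨i, hi⟩ s hs h
  obtain ⟨s', hrel, ε, hε, h⟩ := key
  rw [permRoot_eq G π r s' hrel]
  exact ⟨ε, hε, h⟩

end Cfsg.Agent.H22
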