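import Cfsg.Agent.H22.ChevGraph
import Cfsg.Prelude.Def_LieTypes

/-! Table facts for the graph-automorphism argument, types D₄ and E₆. -/

set_option autoImplicit false
set_option maxRecDepth 1000000

namespace Cfsg.Agent.H22

open Cfsg.Lie

theorem orbChk_D4 : orbChk chevD4 6 = true := by decide +kernel

theorem gf_inj_D4 : ∀ s < chevD4.nroots, ∀ s' < chevD4.nroots,
    (∀ k < chevD4.rank, crt chevD4 s k = crt chevD4 s' k) → s = s' := by decide +kernel

theorem gf_lt_D4 : ∀ i < chevD4.rank, ∀ s < chevD4.nroots, chevD4.reflectRoot i s < chevD4.nroots := by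
  decide +kernel

theorem gf_crt_D4 : ∀ i < chevD4.rank, ∀ s < chevD4.nroots, ∀ k < chevD4.rank,
    crt chevD4 (chevD4.reflectRoot i s) k = crt chevD4 s k - (if k = i then chevD4.cartan i s else 0) := by
  decide +kernel

theorem gf_lin_D4 : ∀ i < chevD4.rank, ∀ s < chevD4.nroots,
    chevD4.cartan i s = ∑ k : Fin chevD4.rank, crt chevD4 s k * chevD4.cartan i (chevD4.simple k) := by
  decide +kernel

theorem gf_bond_D4 : ∀ i < chevD4.rank, ∀ k < chevD4.rank, i ≠ k →
    chevD4.cartan i (chevD4.simple k) = - chevD4.bonds i k := by decide +kernel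

theorem gf_diag_D4 : ∀ i < chevD4.rank, chevD4.cartan i (chevD4.simple i) = 2 := by decide +kernel

theorem gf_slt_D4 : ∀ i < chevD4.rank, chevD4.simple i < chevD4.nroots := by decide +kernel

theorem gf_scrt_D4 : ∀ i < chevD4.rank, ∀ k < chevD4.rank,
    crt chevD4 (chevD4.simple i) k = if k = i then 1 else 0 := by decide +kernel

theorem graphFacts_D4 : GraphFacts chevD4 :=
  ⟨gf_inj_D4, gf_lt_D4, gf_crt_D4, gf_lin_D4, gf_bond_D4, gf_diag_D4, gf_slt_D4, gf_scrt_D4⟩

theorem orbChk_E6 : orbChk chevE6 12 = true := by decide +kernel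

theorem gf_inj_E6 : ∀ s < chevE6.nroots, ∀ s' < chevE6.nroots,
    (∀ k < chevE6.rank, crt chevE6 s k = crt chevE6 s' k) → s = s' := by decide +kernel

theorem gf_lt_E6 : ∀ i < chevE6.rank, ∀ s < chevE6.nroots, chevE6.reflectRoot i s < chevE6.nroots := by
  decide +kernel

theorem gf_crt_E6 : ∀ i < chevE6.rank, ∀ s < chevE6.nroots, ∀ k < chevE6.rank,
    crt chevE6 (chevE6.reflectRoot i s) k = crt chevE6 s k - (if k = i then chevE6.cartan i s else 0) := by
  decide +kernel

theorem gf_lin_E6 : ∀ i < chevE6.rank, ∀ s < chevE6.nroots,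
    chevE6.cartan i s = ∑ k : Fin chevE6.rank, crt chevE6 s k * chevE6.cartan i (chevE6.simple k) := by
  decide +kernel

theorem gf_bond_E6 : ∀ i < chevE6.rank, ∀ k < chevE6.rank, i ≠ k →
    chevE6.cartan i (chevE6.simple k) = - chevE6.bonds i k := by decide +kernel

theorem gf_diag_E6 : ∀ i < chevE6.rank, chevE6.cartan i (chevE6.simple i) = 2 := by decide +kernel

theorem gf_slt_E6 : ∀ i < chevE6.rank, chevE6.simple i < chevE6.nroots := by decide +kernel

theorem gf_scrt_E6 : ∀ i < chevE6.rank, ∀ k < chevE6.rank,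
    crt chevE6 (chevE6.simple i) k = if k = i then 1 else 0 := by decide +kernel

theorem graphFacts_E6 : GraphFacts chevE6 :=
  ⟨gf_inj_E6, gf_lt_E6, gf_crt_E6, gf_lin_E6, gf_bond_E6, gf_diag_E6, gf_slt_E6, gf_scrt_E6⟩

end Cfsg.Agent.H22
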