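import Cfsg.Agent.H22.ChevRefl

/-!
# Conjugation of root elements by `n_p` (helper22): kernel computations, part a
-/

set_option autoImplicit false
set_option maxRecDepth 1000000

namespace Cfsg.Agent.H22

open Cfsg Cfsg.Lie

theorem reflChk_G2_0 : reflChkR chevG2 0 0 12 = true := by decide +kernel
theorem reflChk_G2_1 : reflChkR chevG2 1 0 12 = true := by decide +kernel
theorem reflChk_B2_0 : reflChkR chevB2 0 0 8 = true := by decide +kernel
theorem reflChk_B2_1 : reflChkR chevB2 1 0 8 = true := by decide +kernel
theorem reflChk_D4_0 : reflChkR chevD4 0 0 24 = true := by decide +kernel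
theorem reflChk_D4_1 : reflChkR chevD4 1 0 24 = true := by decide +kernel
theorem reflChk_D4_2 : reflChkR chevD4 2 0 24 = true := by decide +kernel
theorem reflChk_D4_3 : reflChkR chevD4 3 0 24 = true := by decide +kernel
theorem reflChk_F4_0 : reflChkR chevF4 0 0 48 = true := by decide +kernel
theorem reflChk_F4_1 : reflChkR chevF4 1 0 48 = true := by decide +kernel
theorem reflChk_F4_2 : reflChkR chevF4 2 0 48 = true := by decide +kernel
theorem reflChk_F4_3 : reflChkR chevF4 3 0 48 = true := by decide +kernel
theorem reflChk_E6_0 : reflChkR chevE6 0 0 72 = true := by decide +kernel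
theorem reflChk_E6_1 : reflChkR chevE6 1 0 72 = true := by decide +kernel
theorem reflChk_E6_2 : reflChkR chevE6 2 0 72 = true := by decide +kernel
theorem reflChk_E6_3 : reflChkR chevE6 3 0 72 = true := by decide +kernel
theorem reflChk_E6_4 : reflChkR chevE6 4 0 72 = true := by decide +kernel
theorem reflChk_E6_5 : reflChkR chevE6 5 0 72 = true := by decide +kernel

end Cfsg.Agent.H22
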