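import Cfsg.Agent.H22.ChevRefl

/-!
# Conjugation of root elements by `n_p` (helper22): kernel computations, part c
-/

set_option autoImplicit false
set_option maxRecDepth 1000000

namespace Cfsg.Agent.H22

open Cfsg Cfsg.Lie

theorem reflChk_E7_4 : reflChkR chevE7 4 0 126 = true := by decide +kernel
theorem reflChk_E7_5 : reflChkR chevE7 5 0 126 = true := by decide +kernel
theorem reflChk_E7_6 : reflChkR chevE7 6 0 126 = true := by decide +kernel

end Cfsg.Agent.H22
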