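import Cfsg.Agent.H22.ChevRefl

/-!
# Conjugation of root elements by `n_p` (helper22): kernel computations, part g
-/

set_option autoImplicit false
set_option maxRecDepth 1000000

namespace Cfsg.Agent.H22

open Cfsg Cfsg.Lie

theorem reflChk_E8_3_0 : reflChkR chevE8 3 0 60 = true := by decide +kernel
theorem reflChk_E8_3_1 : reflChkR chevE8 3 60 60 = true := by decide +kernel
theorem reflChk_E8_3_2 : reflChkR chevE8 3 120 60 = true := by decide +kernel
theorem reflChk_E8_3_3 : reflChkR chevE8 3 180 60 = true := by decide +kernel

end Cfsg.Agent.H22
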