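import Cfsg.Agent.H22.ChevRa
import Cfsg.Agent.H22.ChevRb
import Cfsg.Agent.H22.ChevRc
import Cfsg.Agent.H22.ChevRd
import Cfsg.Agent.H22.ChevRe
import Cfsg.Agent.H22.ChevRf
import Cfsg.Agent.H22.ChevRg
import Cfsg.Agent.H22.ChevRh
import Cfsg.Agent.H22.ChevRi
import Cfsg.Agent.H22.ChevRj
import Cfsg.Agent.H22.ChevRk

/-!
# Conjugation of root elements by `n_p` (helper22)
-/

set_option autoImplicit false

namespace Cfsg.Agent.H22

open Cfsg Cfsg.Lie

theorem reflChk_all (D : ChevalleyDatum)
    (hD : D ∈ [chevG2, chevB2, chevD4, chevF4, chevE6, chevE7, chevE8]) (i s : ℕ)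
    (hi : i < D.rank) (hs : s < D.nroots) : reflChk D i s = true := by
  simp only [List.mem_cons, List.not_mem_nil, or_false] at hD
  rcases hD with rfl | rfl | rfl | rfl | rfl | rfl | rfl
  · have hi' : i < 2 := hi
    interval_cases i
    · exact reflChkR_spec _ 0 0 12 reflChk_G2_0 s (by omega) hs
    · exact reflChkR_spec _ 1 0 12 reflChk_G2_1 s (by omega) hs
  · have hi' : i < 2 := hi
    interval_cases i
    · exact reflChkR_spec _ 0 0 8 reflChk_B2_0 s (by omega) hs
    · exact reflChkR_spec _ 1 0 8 reflChk_B2_1 s (by omega) hs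
  · have hi' : i < 4 := hi
    interval_cases i
    · exact reflChkR_spec _ 0 0 24 reflChk_D4_0 s (by omega) hs
    · exact reflChkR_spec _ 1 0 24 reflChk_D4_1 s (by omega) hs
    · exact reflChkR_spec _ 2 0 24 reflChk_D4_2 s (by omega) hs
    · exact reflChkR_spec _ 3 0 24 reflChk_D4_3 s (by omega) hs
  · have hi' : i < 4 := hi
    interval_cases i
    · exact reflChkR_spec _ 0 0 48 reflChk_F4_0 s (by omega) hs
    · exact reflChkR_spec _ 1 0 48 reflChk_F4_1 s (by omega) hs
    · exact reflChkR_spec _ 2 0 48 reflChk_F4_2 s (by omega) hs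
    · exact reflChkR_spec _ 3 0 48 reflChk_F4_3 s (by omega) hs
  · have hi' : i < 6 := hi
    interval_cases i
    · exact reflChkR_spec _ 0 0 72 reflChk_E6_0 s (by omega) hs
    · exact reflChkR_spec _ 1 0 72 reflChk_E6_1 s (by omega) hs
    · exact reflChkR_spec _ 2 0 72 reflChk_E6_2 s (by omega) hs
    · exact reflChkR_spec _ 3 0 72 reflChk_E6_3 s (by omega) hs
    · exact reflChkR_spec _ 4 0 72 reflChk_E6_4 s (by omega) hs
    · exact reflChkR_spec _ 5 0 72 reflChk_E6_5 s (by omega) hs
  · have hi' : i < 7 := hi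
    interval_cases i
    · exact reflChkR_spec _ 0 0 126 reflChk_E7_0 s (by omega) hs
    · exact reflChkR_spec _ 1 0 126 reflChk_E7_1 s (by omega) hs
    · exact reflChkR_spec _ 2 0 126 reflChk_E7_2 s (by omega) hs
    · exact reflChkR_spec _ 3 0 126 reflChk_E7_3 s (by omega) hs
    · exact reflChkR_spec _ 4 0 126 reflChk_E7_4 s (by omega) hs
    · exact reflChkR_spec _ 5 0 126 reflChk_E7_5 s (by omega) hs
    · exact reflChkR_spec _ 6 0 126 reflChk_E7_6 s (by omega) hs
  · have hi' : i < 8 := hi
    have hs' : s < 240 := hs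
    interval_cases i
    · by_cases h1 : s < 60
      · exact reflChkR_spec _ 0 0 60 reflChk_E8_0_0 s (by omega) (by omega)
      by_cases h2 : s < 120
      · exact reflChkR_spec _ 0 60 60 reflChk_E8_0_1 s (by omega) (by omega)
      by_cases h3 : s < 180
      · exact reflChkR_spec _ 0 120 60 reflChk_E8_0_2 s (by omega) (by omega)
      · exact reflChkR_spec _ 0 180 60 reflChk_E8_0_3 s (by omega) (by omega)
    · by_cases h1 : s < 60
      · exact reflChkR_spec _ 1 0 60 reflChk_E8_1_0 s (by omega) (by omega)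
      by_cases h2 : s < 120
      · exact reflChkR_spec _ 1 60 60 reflChk_E8_1_1 s (by omega) (by omega)
      by_cases h3 : s < 180
      · exact reflChkR_spec _ 1 120 60 reflChk_E8_1_2 s (by omega) (by omega)
      · exact reflChkR_spec _ 1 180 60 reflChk_E8_1_3 s (by omega) (by omega)
    · by_cases h1 : s < 60
      · exact reflChkR_spec _ 2 0 60 reflChk_E8_2_0 s (by omega) (by omega)
      by_cases h2 : s < 120
      · exact reflChkR_spec _ 2 60 60 reflChk_E8_2_1 s (by omega) (by omega)
      by_cases h3 : s < 180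
      · exact reflChkR_spec _ 2 120 60 reflChk_E8_2_2 s (by omega) (by omega)
      · exact reflChkR_spec _ 2 180 60 reflChk_E8_2_3 s (by omega) (by omega)
    · by_cases h1 : s < 60
      · exact reflChkR_spec _ 3 0 60 reflChk_E8_3_0 s (by omega) (by omega)
      by_cases h2 : s < 120
      · exact reflChkR_spec _ 3 60 60 reflChk_E8_3_1 s (by omega) (by omega)
      by_cases h3 : s < 180
      · exact reflChkR_spec _ 3 120 60 reflChk_E8_3_2 s (by omega) (by omega)
      · exact reflChkR_spec _ 3 180 60 reflChk_E8_3_3 s (by omega) (by omega)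
    · by_cases h1 : s < 60
      · exact reflChkR_spec _ 4 0 60 reflChk_E8_4_0 s (by omega) (by omega)
      by_cases h2 : s < 120
      · exact reflChkR_spec _ 4 60 60 reflChk_E8_4_1 s (by omega) (by omega)
      by_cases h3 : s < 180
      · exact reflChkR_spec _ 4 120 60 reflChk_E8_4_2 s (by omega) (by omega)
      · exact reflChkR_spec _ 4 180 60 reflChk_E8_4_3 s (by omega) (by omega)
    · by_cases h1 : s < 60
      · exact reflChkR_spec _ 5 0 60 reflChk_E8_5_0 s (by omega) (by omega)
      by_cases h2 : s < 120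
      · exact reflChkR_spec _ 5 60 60 reflChk_E8_5_1 s (by omega) (by omega)
      by_cases h3 : s < 180
      · exact reflChkR_spec _ 5 120 60 reflChk_E8_5_2 s (by omega) (by omega)
      · exact reflChkR_spec _ 5 180 60 reflChk_E8_5_3 s (by omega) (by omega)
    · by_cases h1 : s < 60
      · exact reflChkR_spec _ 6 0 60 reflChk_E8_6_0 s (by omega) (by omega)
      by_cases h2 : s < 120
      · exact reflChkR_spec _ 6 60 60 reflChk_E8_6_1 s (by omega) (by omega)
      by_cases h3 : s < 180
      · exact reflChkR_spec _ 6 120 60 reflChk_E8_6_2 s (by omega) (by omega)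
      · exact reflChkR_spec _ 6 180 60 reflChk_E8_6_3 s (by omega) (by omega)
    · by_cases h1 : s < 60
      · exact reflChkR_spec _ 7 0 60 reflChk_E8_7_0 s (by omega) (by omega)
      by_cases h2 : s < 120
      · exact reflChkR_spec _ 7 60 60 reflChk_E8_7_1 s (by omega) (by omega)
      by_cases h3 : s < 180
      · exact reflChkR_spec _ 7 120 60 reflChk_E8_7_2 s (by omega) (by omega)
      · exact reflChkR_spec _ 7 180 60 reflChk_E8_7_3 s (by omega) (by omega)

end Cfsg.Agent.H22
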