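import Cfsg.Agent.H22.ChevSL2

/-!
# The homomorphism `SL₂(F) → ⟨X_r, X_{-r}⟩` (helper22): kernel computations, part c
-/

set_option autoImplicit false
set_option maxRecDepth 1000000

namespace Cfsg.Agent.H22

open Cfsg Cfsg.Lie

theorem sl2Chk_E8_4 : sl2Chk chevE8 120 30 = true := by decide +kernel
theorem sl2Chk_E8_5 : sl2Chk chevE8 150 30 = true := by decide +kernel
theorem sl2Chk_E8_6 : sl2Chk chevE8 180 30 = true := by decide +kernel
theorem sl2Chk_E8_7 : sl2Chk chevE8 210 30 = true := by decide +kernel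

end Cfsg.Agent.H22
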