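import Cfsg.Agent.H22.ChevSa
import Cfsg.Agent.H22.ChevSb
import Cfsg.Agent.H22.ChevSc

/-!
# The homomorphism `SL₂(F) → ⟨X_r, X_{-r}⟩` (helper22)
-/

set_option autoImplicit false

namespace Cfsg.Agent.H22

open Cfsg Cfsg.Lie

theorem sl2Chk_all (D : ChevalleyDatum)
    (hD : D ∈ [chevG2, chevB2, chevD4, chevF4, chevE6, chevE7, chevE8]) (r : ℕ)
    (hr : r < D.nroots) : sl2Chk1 D r = true := by
  simp only [List.mem_cons, List.not_mem_nil, or_false] at hD
  rcases hD with rfl | rfl | rfl | rfl | rfl | rfl | rfl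
  · exact sl2Chk_spec _ 0 12 sl2Chk_G2_0 r (by omega) hr
  · exact sl2Chk_spec _ 0 8 sl2Chk_B2_0 r (by omega) hr
  · exact sl2Chk_spec _ 0 24 sl2Chk_D4_0 r (by omega) hr
  · exact sl2Chk_spec _ 0 48 sl2Chk_F4_0 r (by omega) hr
  · have hr' : r < 72 := hr
    by_cases h0 : r < 36
    · exact sl2Chk_spec _ 0 36 sl2Chk_E6_0 r (by omega) (by omega)
    · exact sl2Chk_spec _ 36 36 sl2Chk_E6_1 r (by omega) (by omega)
  · have hr' : r < 126 := hr
    by_cases h0 : r < 42
    · exact sl2Chk_spec _ 0 42 sl2Chk_E7_0 r (by omega) (by omega)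
    by_cases h1 : r < 84
    · exact sl2Chk_spec _ 42 42 sl2Chk_E7_1 r (by omega) (by omega)
    · exact sl2Chk_spec _ 84 42 sl2Chk_E7_2 r (by omega) (by omega)
  · have hr' : r < 240 := hr
    by_cases h0 : r < 30
    · exact sl2Chk_spec _ 0 30 sl2Chk_E8_0 r (by omega) (by omega)
    by_cases h1 : r < 60
    · exact sl2Chk_spec _ 30 30 sl2Chk_E8_1 r (by omega) (by omega)
    by_cases h2 : r < 90
    · exact sl2Chk_spec _ 60 30 sl2Chk_E8_2 r (by omega) (by omega)
    by_cases h3 : r < 120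
    · exact sl2Chk_spec _ 90 30 sl2Chk_E8_3 r (by omega) (by omega)
    by_cases h4 : r < 150
    · exact sl2Chk_spec _ 120 30 sl2Chk_E8_4 r (by omega) (by omega)
    by_cases h5 : r < 180
    · exact sl2Chk_spec _ 150 30 sl2Chk_E8_5 r (by omega) (by omega)
    by_cases h6 : r < 210
    · exact sl2Chk_spec _ 180 30 sl2Chk_E8_6 r (by omega) (by omega)
    · exact sl2Chk_spec _ 210 30 sl2Chk_E8_7 r (by omega) (by omega)

theorem sl2Facts_all {F : Type*} [Field F] (D : ChevalleyDatum)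
    (hD : D ∈ [chevG2, chevB2, chevD4, chevF4, chevE6, chevE7, chevE8]) (r : ℕ)
    (hr : r < D.nroots) : SL2Facts D F r :=
  sl2Facts_of_check (tablesCheck_all D hD) (maskCheck_all D hD) r hr (sl2Chk_all D hD r hr)

end Cfsg.Agent.H22
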