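import Cfsg.Agent.H22.ChevSL2

/-!
# The homomorphism `SL₂(F) → ⟨X_r, X_{-r}⟩` (helper22): kernel computations, part a
-/

set_option autoImplicit false
set_option maxRecDepth 1000000

namespace Cfsg.Agent.H22

open Cfsg Cfsg.Lie

theorem sl2Chk_G2_0 : sl2Chk chevG2 0 12 = true := by decide +kernel
theorem sl2Chk_B2_0 : sl2Chk chevB2 0 8 = true := by decide +kernel
theorem sl2Chk_D4_0 : sl2Chk chevD4 0 24 = true := by decide +kernel
theorem sl2Chk_F4_0 : sl2Chk chevF4 0 48 = true := by decide +kernel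
theorem sl2Chk_E6_0 : sl2Chk chevE6 0 36 = true := by decide +kernel
theorem sl2Chk_E6_1 : sl2Chk chevE6 36 36 = true := by decide +kernel
theorem sl2Chk_E7_0 : sl2Chk chevE7 0 42 = true := by decide +kernel
theorem sl2Chk_E7_1 : sl2Chk chevE7 42 42 = true := by decide +kernel
theorem sl2Chk_E7_2 : sl2Chk chevE7 84 42 = true := by decide +kernel

end Cfsg.Agent.H22
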