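import Cfsg.Agent.H22.HSGraph
import Cfsg.Agent.H9.Stg22

/-!
# An odd automorphism of the point-block graph of an S(3, 6, 22)

An explicit involution of the standard S(3, 6, 22) induces an even permutation of the 77 blocks
and an odd permutation of the 22 points; hence it induces an odd permutation of the 100 vertices
of the point-block graph.
-/

set_option autoImplicit false

namespace Cfsg.Agent.H22.HSOdd

open Cfsg Finset Cfsg.Agent.H34 Cfsg.Agent.H9.Stg
open scoped Pointwise

/-- an involution of the points of the standard system -/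
def tau0 : Equiv.Perm (Fin 22) := Equiv.swap 2 3 * Equiv.swap 6 7 * Equiv.swap 8 12 * Equiv.swap 9 13 * Equiv.swap 10 15 * Equiv.swap 11 14 * Equiv.swap 16 17

/-- the permutation it induces on the indices of the blocks -/
def pi0 : Equiv.Perm (Fin 77) := Equiv.swap 1 2 * Equiv.swap 5 6 * Equiv.swap 11 12 * Equiv.swap 13 19 * Equiv.swap 14 20 * Equiv.swap 15 18 * Equiv.swap 16 17 * Equiv.swap 23 24 * Equiv.swap 25 26 * Equiv.swap 29 36 * Equiv.swap 30 35 * Equiv.swap 31 33 * Equiv.swap 32 34 * Equiv.swap 37 38 * Equiv.swap 41 48 * Equiv.swap 42 47 * Equiv.swap 43 46 * Equiv.swap 44 45 * Equiv.swap 49 56 * Equiv.swap 50 55 * Equiv.swap 51 54 * Equiv.swap 52 53 * Equiv.swap 61 74 * Equiv.swap 62 73 * Equiv.swap 63 70 * Equiv.swap 65 68 * Equiv.swap 71 76 * Equiv.swap 72 75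

theorem w22L_length : w22L.length = 77 := by decide

set_option maxRecDepth 100000 in
theorem w22L_nodup : w22L.Nodup := by decide +kernel

set_option maxRecDepth 100000 in
theorem w22L_lt : ∀ m ∈ w22L, m < 2 ^ 22 := by decide +kernel

set_option maxRecDepth 100000 in
theorem pi0_spec : ∀ i : Fin 77, ∀ j : Fin 22,
    (w22L.getD (pi0 i) 0).testBit j = (w22L.getD i 0).testBit (tau0 j) := by
  decide +kernel

theorem tau0_invol : ∀ j : Fin 22, tau0 (tau0 j) = j := by decide +kernel

theorem pi0_zero : pi0 0 = 0 := by decide +kernel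

theorem tau0_zero : tau0 0 = 0 := by decide +kernel

theorem sign_tau0 : Equiv.Perm.sign tau0 = -1 := by
  simp [tau0, Equiv.Perm.sign_mul, Equiv.Perm.sign_swap']

theorem sign_pi0 : Equiv.Perm.sign pi0 = 1 := by
  simp [pi0, Equiv.Perm.sign_mul, Equiv.Perm.sign_swap']

section bridge
variable {α : Type*} [Fintype α] [DecidableEq α] {B : Set (Finset α)}

/-- the permutation of the points -/
def tauOf (e : α ≃ Fin 22) : Equiv.Perm α := e.symm.permCongr tau0

theorem tauOf_apply (e : α ≃ Fin 22) (x : α) : tauOf e x = e.symm (tau0 (e x)) := rfl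

theorem tauOf_invol (e : α ≃ Fin 22) (x : α) : tauOf e (tauOf e x) = x := by
  rw [tauOf_apply, tauOf_apply, Equiv.apply_symm_apply, tau0_invol, Equiv.symm_apply_apply]

theorem sign_tauOf (e : α ≃ Fin 22) : Equiv.Perm.sign (tauOf e) = -1 := by
  rw [tauOf, Equiv.Perm.sign_permCongr, sign_tau0]

theorem image_tauOf (e : α ≃ Fin 22) (i : Fin 77) :
    (ofMask e (w22L.getD i 0)).image (tauOf e) = ofMask e (w22L.getD (pi0 i) 0) := by
  ext x
  rw [mem_image, mem_ofMask, pi0_spec i (e x)]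
  constructor
  · rintro ⟨y, hy, rfl⟩
    rw [mem_ofMask] at hy
    rw [tauOf_apply, Equiv.apply_symm_apply, tau0_invol]
    exact hy
  · intro h
    refine ⟨tauOf e x, ?_, tauOf_invol e x⟩
    rw [mem_ofMask, tauOf_apply, Equiv.apply_symm_apply]
    exact h

theorem getD_mem (i : Fin 77) : w22L.getD i 0 ∈ w22L := by
  have hi : (i : ℕ) < w22L.length := by rw [w22L_length]; exact i.2
  rw [List.getD_eq_getElem _ _ hi]
  exact List.getElem_mem hi

theorem ofMask_mem {e : α ≃ Fin 22} (he : ∀ b : Finset α, b ∈ B ↔ toMask e b ∈ w22L)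
    (i : Fin 77) : ofMask e (w22L.getD i 0) ∈ B := by
  rw [he]
  have hm := getD_mem i
  have : toMask e (ofMask e (w22L.getD i 0)) = w22L.getD i 0 :=
    ofMask_inj e (toMask_lt e _) (w22L_lt _ hm) (ofMask_toMask e _)
  rw [this]
  exact hm

theorem exists_index {e : α ≃ Fin 22} (he : ∀ b : Finset α, b ∈ B ↔ toMask e b ∈ w22L)
    {b : Finset α} (hb : b ∈ B) : ∃ i : Fin 77, ofMask e (w22L.getD i 0) = b := by
  obtain ⟨n, hn, e1⟩ := List.getElem_of_mem ((he b).1 hb)
  refine ⟨⟨n, by rw [← w22L_length]; exact hn⟩, ?_⟩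
  show ofMask e (w22L.getD n 0) = b
  rw [List.getD_eq_getElem _ _ hn, e1, ofMask_toMask]

/-- the numbering of the blocks -/
def blk {e : α ≃ Fin 22} (he : ∀ b : Finset α, b ∈ B ↔ toMask e b ∈ w22L) (i : Fin 77) : ↥B :=
  ⟨ofMask e (w22L.getD i 0), ofMask_mem he i⟩

theorem blk_bijective {e : α ≃ Fin 22} (he : ∀ b : Finset α, b ∈ B ↔ toMask e b ∈ w22L) :
    Function.Bijective (blk he) := by
  constructor
  · intro i j h
    have h1 : ofMask e (w22L.getD i 0) = ofMask e (w22L.getD j 0) := congrArg Subtype.val h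
    have hi : (i : ℕ) < w22L.length := by rw [w22L_length]; exact i.2
    have hj : (j : ℕ) < w22L.length := by rw [w22L_length]; exact j.2
    have h2 := ofMask_inj e (w22L_lt _ (getD_mem i)) (w22L_lt _ (getD_mem j)) h1
    rw [List.getD_eq_getElem _ _ hi, List.getD_eq_getElem _ _ hj] at h2
    exact Fin.ext ((List.Nodup.getElem_inj_iff w22L_nodup).1 h2)
  · rintro ⟨b, hb⟩
    obtain ⟨i, hi⟩ := exists_index he hb
    exact ⟨i, Subtype.ext hi⟩

theorem tauOf_mem (hα : Fintype.card α = 22) (hB : IsSteinerSystem 3 6 B) {e : α ≃ Fin 22}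
    (he : ∀ b : Finset α, b ∈ B ↔ toMask e b ∈ w22L) : tauOf e ∈ setSystemAut B := by
  rw [MulAction.mem_stabilizer_iff, Cfsg.Agent.H22.Plane4.smul_lines]
  apply Cfsg.Agent.H22.W22.image_blocks hα hα hB hB (tauOf e)
  intro b hb
  obtain ⟨i, rfl⟩ := exists_index he hb
  rw [image_tauOf]
  exact ofMask_mem he (pi0 i)

/-- an automorphism of the Steiner system inducing an odd permutation of the vertices of the
point-block graph, and fixing a block -/
theorem exists_odd [Fintype ↥B] (hα : Fintype.card α = 22) (hB : IsSteinerSystem 3 6 B) :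
    ∃ τ : setSystemAut B, Equiv.Perm.sign ((Cfsg.Agent.H22.HS.autOf τ).toEquiv) = -1 ∧
      (∃ b ∈ B, b.image τ.1 = b) ∧ ∃ a : α, τ.1 a = a := by
  obtain ⟨e, he⟩ := w22_std hα hB
  have hmem := tauOf_mem hα hB he
  refine ⟨⟨tauOf e, hmem⟩, ?_, ⟨ofMask e (w22L.getD (0 : Fin 77) 0), ofMask_mem he 0, ?_⟩,
    e.symm 0, ?_⟩
  rotate_left
  · have := image_tauOf e (0 : Fin 77)
    rw [pi0_zero] at this
    exact this
  · show tauOf e (e.symm 0) = e.symm 0
    rw [tauOf_apply, Equiv.apply_symm_apply, tau0_zero]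
  · have h1 : (Cfsg.Agent.H22.HS.autOf ⟨tauOf e, hmem⟩).toEquiv =
        Equiv.optionCongr (Equiv.Perm.sumCongr (tauOf e) (Cfsg.Agent.H22.SRG.blockEquiv (tauOf e)
          (Cfsg.Agent.H22.HS.image_eq_of_mem ⟨tauOf e, hmem⟩))) := rfl
    have h3 : Equiv.Perm.sign (Cfsg.Agent.H22.SRG.blockEquiv (tauOf e)
          (Cfsg.Agent.H22.HS.image_eq_of_mem ⟨tauOf e, hmem⟩)) = 1 := by
      rw [← sign_pi0]
      symm
      apply Equiv.Perm.sign_eq_sign_of_equiv pi0 _ (Equiv.ofBijective (blk he) (blk_bijective he))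
      intro i
      apply Subtype.ext
      rw [Cfsg.Agent.H22.SRG.blockEquiv_coe]
      show ofMask e (w22L.getD (pi0 i) 0) = (ofMask e (w22L.getD i 0)).image (tauOf e)
      exact (image_tauOf e i).symm
    rw [h1, Equiv.optionCongr_sign, Equiv.Perm.sign_sumCongr, sign_tauOf, h3]
    rfl

end bridge

end Cfsg.Agent.H22.HSOdd
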