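import Mathlib
import Cfsg.Agent.H33.Prim

/-!
# A simplicity criterion for transitive groups with a simple maximal point stabiliser

`simple_of_coatom_stab`: a finite group acting faithfully and transitively, whose point stabiliser
is maximal and simple, is simple unless it has a regular normal subgroup.

`no_regular_100`: a regular normal subgroup is impossible when the point stabiliser has exactly
three orbits, of sizes 1, 22 and 77.
-/

set_option autoImplicit false

namespace Cfsg.Agent.H22.Crit

open MulAction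
open scoped Pointwise

theorem simple_of_coatom_stab {G V : Type*} [Group G] [MulAction G V]
    [FaithfulSMul G V] (v : V) (htr : ∀ w : V, ∃ g : G, g • v = w)
    (hco : IsCoatom (stabilizer G v))
    (hK : IsSimpleGroup (stabilizer G v))
    (hreg : ∀ N : Subgroup G, N.Normal → N ⊓ stabilizer G v = ⊥ → N ⊔ stabilizer G v = ⊤ → False) :
    IsSimpleGroup G := by
  have hnt : Nontrivial G := by
    obtain ⟨a, b, hab⟩ := hK.toNontrivial
    exact ⟨a.1, b.1, fun e => hab (Subtype.ext e)⟩
  refine ⟨fun N hN => ?_⟩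
  by_cases hle : N ≤ stabilizer G v
  · left
    rw [eq_bot_iff]
    intro n hn
    rw [Subgroup.mem_bot]
    apply FaithfulSMul.eq_of_smul_eq_smul (α := V)
    intro w
    obtain ⟨g, rfl⟩ := htr w
    have h1 : g⁻¹ * n * g ∈ stabilizer G v := hle (by
      have := hN.conj_mem n hn g⁻¹
      simpa using this)
    rw [mem_stabilizer_iff, mul_smul, mul_smul] at h1
    rw [one_smul, ← mul_smul]
    have h2 := congrArg (fun x => g • x) h1
    simp only [smul_inv_smul] at h2
    rw [mul_smul]
    exact h2
  · have hlt : stabilizer G v < N ⊔ stabilizer G v := by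
      refine lt_of_le_of_ne le_sup_right (fun e => hle ?_)
      rw [e]; exact le_sup_left
    have htop : N ⊔ stabilizer G v = ⊤ := hco.2 _ hlt
    have hn' : (N.subgroupOf (stabilizer G v)).Normal := hN.subgroupOf _
    rcases hK.eq_bot_or_eq_top_of_normal _ hn' with h | h
    · exfalso
      rw [Subgroup.subgroupOf_eq_bot, disjoint_iff] at h
      exact hreg N hN h htop
    · right
      rw [Subgroup.subgroupOf_eq_top] at h
      rw [← htop]
      exact (sup_eq_left.2 h).symm

theorem zmod2_one_add_one : (1 : ZMod 2) + 1 = 0 := by decide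

theorem zmod2_77 : (77 : ℕ) • (1 : ZMod 2) ≠ 0 := by decide

theorem ncard_false {V : Type*} (v : V) (c : V → Bool)
    (h22 : {w : V | w ≠ v ∧ c w = true}.ncard = 22) (hV : Nat.card V = 100) :
    {w : V | w ≠ v ∧ c w = false}.ncard = 77 := by
  have hfinV : Finite V := Nat.finite_of_card_ne_zero (by rw [hV]; norm_num)
  have hsplit : (Set.univ : Set V) = {v} ∪ ({w : V | w ≠ v ∧ c w = true} ∪
      {w : V | w ≠ v ∧ c w = false}) := by
    ext w
    simp only [Set.mem_univ, Set.mem_union, Set.mem_singleton_iff, Set.mem_ofPred_eq, true_iff]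
    by_cases hw : w = v
    · left; exact hw
    · right
      cases hc : c w
      · right; exact ⟨hw, rfl⟩
      · left; exact ⟨hw, rfl⟩
  have hd1 : Disjoint {w : V | w ≠ v ∧ c w = true} {w : V | w ≠ v ∧ c w = false} := by
    rw [Set.disjoint_left]
    rintro w ⟨-, h1⟩ ⟨-, h2⟩
    rw [h1] at h2; exact absurd h2 (by decide)
  have hd2 : Disjoint ({v} : Set V) ({w : V | w ≠ v ∧ c w = true} ∪
      {w : V | w ≠ v ∧ c w = false}) := by
    rw [Set.disjoint_left]
    rintro w hw (⟨h, -⟩ | ⟨h, -⟩) <;> exact h hw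
  have hcard := congrArg Set.ncard hsplit
  rw [Set.ncard_univ, hV, Set.ncard_union_eq hd2 (Set.toFinite _) (Set.toFinite _),
    Set.ncard_union_eq hd1 (Set.toFinite _) (Set.toFinite _), Set.ncard_singleton, h22] at hcard
  omega

/-- no regular normal subgroup when the point stabiliser has orbits of sizes 1, 22, 77 -/
theorem no_regular_100 {G V : Type*} [Group G] [Finite G] [MulAction G V] (v : V) (c : V → Bool)
    (htr : ∀ w : V, ∃ g : G, g • v = w)
    (hK : ∀ y z : V, y ≠ v → z ≠ v → c y = c z → ∃ k : G, k • v = v ∧ k • y = z)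
    (h22 : {w : V | w ≠ v ∧ c w = true}.ncard = 22)
    (hV : Nat.card V = 100)
    (N : Subgroup G) (hN : N.Normal) (h1 : N ⊓ stabilizer G v = ⊥)
    (h2 : N ⊔ stabilizer G v = ⊤) : False := by
  classical
  -- the orbit map of `N`
  let θ : ↥N → V := fun n => (n : G) • v
  have θinj : Function.Injective θ := by
    intro n n' e
    have h3 : (n : G)⁻¹ * (n' : G) ∈ N ⊓ stabilizer G v := by
      refine Subgroup.mem_inf.2 ⟨N.mul_mem (N.inv_mem n.2) n'.2, mem_stabilizer_iff.2 ?_⟩
      have e' : (n : G) • v = (n' : G) • v := e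
      rw [mul_smul, ← e', inv_smul_smul]
    rw [h1, Subgroup.mem_bot, inv_mul_eq_one] at h3
    exact Subtype.ext h3
  have θsurj : Function.Surjective θ := by
    intro w
    obtain ⟨g, rfl⟩ := htr w
    have hg : g ∈ N ⊔ stabilizer G v := by rw [h2]; trivial
    have hmul : (↑(N ⊔ stabilizer G v) : Set G) = (N : Set G) * (stabilizer G v : Set G) := by
      haveI := hN
      exact Subgroup.normal_mul N (stabilizer G v)
    have hg' : g ∈ (N : Set G) * (stabilizer G v : Set G) := by rw [← hmul]; exact hg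
    obtain ⟨n, hn, k, hk, rfl⟩ := Set.mem_mul.1 hg'
    refine ⟨⟨n, hn⟩, ?_⟩
    show n • v = (n * k) • v
    rw [mul_smul, mem_stabilizer_iff.1 hk]
  have hcardN : Nat.card ↥N = 100 := by
    rw [← hV]; exact Nat.card_congr (Equiv.ofBijective θ ⟨θinj, θsurj⟩)
  have θ1 : θ 1 = v := by
    show ((1 : ↥N) : G) • v = v
    simp
  have θone : ∀ n : ↥N, n ≠ 1 → θ n ≠ v := by
    intro n hn e
    exact hn (θinj (e.trans θ1.symm))
  -- elements of the same colour have the same order
  have hord : ∀ n n' : ↥N, n ≠ 1 → n' ≠ 1 → c (θ n) = c (θ n') → orderOf n = orderOf n' := by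
    intro n n' hn hn' hc
    obtain ⟨k, hkv, hk⟩ := hK (θ n) (θ n') (θone n hn) (θone n' hn') hc
    have hconj : k * (n : G) * k⁻¹ ∈ N := hN.conj_mem n n.2 k
    have e : (⟨k * (n : G) * k⁻¹, hconj⟩ : ↥N) = n' := by
      apply θinj
      show (k * (n : G) * k⁻¹) • v = (n' : G) • v
      have hkv' : k⁻¹ • v = v := by
        have := congrArg (fun x => k⁻¹ • x) hkv
        simp only [inv_smul_smul] at this
        exact this.symm
      rw [mul_smul, mul_smul, hkv']
      exact hk
    have e1 : orderOf n = orderOf (n : G) := (Subgroup.orderOf_coe n).symm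
    have e2 : orderOf n' = orderOf (n' : G) := (Subgroup.orderOf_coe n').symm
    have e3 : (n' : G) = k * (n : G) * k⁻¹ := (congrArg Subtype.val e).symm
    rw [e1, e2, e3]
    exact (orderOf_injective (MulAut.conj k).toMonoidHom (MulAut.conj k).injective (n : G)).symm
  -- Sylow subgroups
  haveI : Fact (Nat.Prime 5) := ⟨by norm_num⟩
  haveI : Fact (Nat.Prime 2) := ⟨by norm_num⟩
  obtain ⟨P, hP⟩ := Sylow.exists_subgroup_card_pow_prime (G := ↥N) 5 (n := 2)
    (by rw [hcardN]; norm_num)
  obtain ⟨Q, hQ⟩ := Sylow.exists_subgroup_card_pow_prime (G := ↥N) 2 (n := 2)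
    (by rw [hcardN]; norm_num)
  have hPord : ∀ x ∈ P, x ≠ 1 → Odd (orderOf x) ∧ orderOf x ≠ 1 := by
    intro x hx hx1
    have hd : orderOf x ∣ 5 ^ 2 := by
      have := Subgroup.orderOf_dvd_natCard P hx
      rwa [hP] at this
    obtain ⟨j, hj, e⟩ := (Nat.dvd_prime_pow (by norm_num : Nat.Prime 5)).1 hd
    refine ⟨?_, fun h => hx1 (orderOf_eq_one_iff.1 h)⟩
    rw [e]
    exact Odd.pow (by decide)
  have hQord : ∀ x ∈ Q, x ≠ 1 → Even (orderOf x) := by
    intro x hx hx1
    have hd : orderOf x ∣ 2 ^ 2 := by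
      have := Subgroup.orderOf_dvd_natCard Q hx
      rwa [hQ] at this
    obtain ⟨j, hj, e⟩ := (Nat.dvd_prime_pow (by norm_num : Nat.Prime 2)).1 hd
    rw [e]
    have hj0 : j ≠ 0 := by
      rintro rfl
      rw [pow_zero] at e
      exact hx1 (orderOf_eq_one_iff.1 e)
    exact (Nat.even_pow.2 ⟨by decide, hj0⟩)
  -- a nonidentity element of `Q`
  obtain ⟨q₀, hq₀, hq₀1⟩ : ∃ q ∈ Q, q ≠ 1 := by
    by_contra hcon
    push Not at hcon
    have : Q = ⊥ := by
      rw [eq_bot_iff]; intro x hx; rw [Subgroup.mem_bot]; exact hcon x hx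
    rw [this, Subgroup.card_bot] at hQ
    norm_num at hQ
  -- all nonidentity elements of `P` have the other colour
  have hPcol : ∀ x ∈ P, x ≠ 1 → c (θ x) = !c (θ q₀) := by
    intro x hx hx1
    by_contra hne
    have hc : c (θ x) = c (θ q₀) := by
      cases h1 : c (θ x) <;> cases h2 : c (θ q₀) <;> simp_all
    have := hord x q₀ hx1 hq₀1 hc
    have ho := (hPord x hx hx1).1
    rw [this] at ho
    exact (Nat.not_even_iff_odd.2 ho) (hQord q₀ hq₀ hq₀1)
  -- hence that colour is the big one
  have hbig : c (θ q₀) = true := by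
    by_contra hf
    have hf' : c (θ q₀) = false := by simpa using hf
    have hsub : θ '' {x : ↥N | x ∈ P ∧ x ≠ 1} ⊆ {w : V | w ≠ v ∧ c w = true} := by
      rintro _ ⟨x, ⟨hx, hx1⟩, rfl⟩
      refine ⟨θone x hx1, ?_⟩
      rw [hPcol x hx hx1, hf']; rfl
    have hfin : {w : V | w ≠ v ∧ c w = true}.Finite := by
      haveI : Finite V := Nat.finite_of_card_ne_zero (by rw [hV]; norm_num)
      exact Set.toFinite _
    have hle := Set.ncard_le_ncard hsub hfin
    rw [Set.ncard_image_of_injective _ θinj, h22] at hle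
    have h24 : {x : ↥N | x ∈ P ∧ x ≠ 1}.ncard = 24 := by
      have e : {x : ↥N | x ∈ P ∧ x ≠ 1} = (P : Set ↥N) \ {1} := by
        ext x; simp
      rw [e, Set.ncard_sdiff (by simpa using P.one_mem)]
      have : (P : Set ↥N).ncard = 25 := by
        rw [← Nat.card_coe_set_eq]; exact hP
      rw [this, Set.ncard_singleton]
    omega
  -- the elements of the small colour
  obtain ⟨x₀, hx₀, hx₀1⟩ : ∃ x ∈ P, x ≠ 1 := by
    by_contra hcon
    push Not at hcon
    have : P = ⊥ := by
      rw [eq_bot_iff]; intro x hx; rw [Subgroup.mem_bot]; exact hcon x hx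
    rw [this, Subgroup.card_bot] at hP
    norm_num at hP
  have hx₀c : c (θ x₀) = false := by rw [hPcol x₀ hx₀ hx₀1, hbig]; rfl
  haveI : Fintype ↥N := Fintype.ofFinite _
  let T : Finset ↥N := Finset.univ.filter (fun n => n ≠ 1 ∧ c (θ n) = false)
  have hTord : ∀ n ∈ T, Odd (orderOf n) ∧ orderOf n ≠ 1 := by
    intro n hn
    simp only [T, Finset.mem_filter, Finset.mem_univ, true_and] at hn
    rw [hord n x₀ hn.1 hx₀1 (by rw [hn.2, hx₀c])]
    exact hPord x₀ hx₀ hx₀1
  have hTinv : ∀ n ∈ T, n⁻¹ ∈ T := by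
    intro n hn
    have ho := hTord n hn
    simp only [T, Finset.mem_filter, Finset.mem_univ, true_and] at hn ⊢
    refine ⟨inv_ne_one.2 hn.1, ?_⟩
    by_contra hcol
    have hcol' : c (θ n⁻¹) = c (θ q₀) := by
      rw [hbig]; simpa using hcol
    have := hord n⁻¹ q₀ (inv_ne_one.2 hn.1) hq₀1 hcol'
    rw [orderOf_inv] at this
    have ho' := ho.1
    rw [this] at ho'
    exact (Nat.not_even_iff_odd.2 ho') (hQord q₀ hq₀ hq₀1)
  have hsum : ∑ n ∈ T, (1 : ZMod 2) = 0 := by
    apply Finset.sum_involution (fun n _ => n⁻¹)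
    · intro n _; exact zmod2_one_add_one
    · intro n hn _ e
      have ho := hTord n hn
      have h2 : n ^ 2 = 1 := by
        rw [pow_two]
        nth_rewrite 1 [← e]
        exact inv_mul_cancel n
      have hd := orderOf_dvd_of_pow_eq_one h2
      have hle := Nat.le_of_dvd (by norm_num) hd
      have hpos := orderOf_pos n
      have hodd := ho.1
      have hne := ho.2
      interval_cases h : orderOf n
      · exact hne rfl
      · exact absurd hodd (by decide)
    · intro n _; exact inv_inv n
    · intro n hn; exact hTinv n hn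
  have hTcard : T.card = 77 := by
    have hfinV : Finite V := Nat.finite_of_card_ne_zero (by rw [hV]; norm_num)
    have himg : θ '' (T : Set ↥N) = {w : V | w ≠ v ∧ c w = false} := by
      ext w
      constructor
      · rintro ⟨n, hn, rfl⟩
        simp only [T, Finset.coe_filter, Finset.mem_univ, true_and, Set.mem_ofPred_eq] at hn
        exact ⟨θone n hn.1, hn.2⟩
      · rintro ⟨hw, hcw⟩
        obtain ⟨n, rfl⟩ := θsurj w
        refine ⟨n, ?_, rfl⟩
        simp only [T, Finset.coe_filter, Finset.mem_univ, true_and, Set.mem_ofPred_eq]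
        refine ⟨?_, hcw⟩
        rintro rfl
        apply hw
        show ((1 : ↥N) : G) • v = v
        simp
    have h77 : {w : V | w ≠ v ∧ c w = false}.ncard = 77 := ncard_false v c h22 hV
    rw [← Set.ncard_coe_finset, ← Set.ncard_image_of_injective _ θinj, himg, h77]
  rw [Finset.sum_const, hTcard] at hsum
  exact zmod2_77 hsum

/-- a faithful transitive group of degree 100 whose point stabiliser is simple and has orbits of
sizes 1, 22 and 77 is simple -/
theorem simple_100 {G V : Type*} [Group G] [Finite G] [MulAction G V] [FaithfulSMul G V]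
    (v : V) (c : V → Bool)
    (htr : ∀ w : V, ∃ g : G, g • v = w)
    (hK : ∀ y z : V, y ≠ v → z ≠ v → c y = c z → ∃ k : G, k • v = v ∧ k • y = z)
    (h22 : {w : V | w ≠ v ∧ c w = true}.ncard = 22)
    (hV : Nat.card V = 100)
    (hS : IsSimpleGroup (stabilizer G v)) : IsSimpleGroup G := by
  have h77 := ncard_false v c h22 hV
  have horb : ∀ w : V, w ∈ orbit G v := fun w => by
    obtain ⟨g, hg⟩ := htr w
    exact ⟨g, hg⟩
  have hco : IsCoatom (stabilizer G v) := by
    apply Cfsg.Agent.H33.isCoatom_stabilizer_of_suborbits v c (fun i => cond i 22 77)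
    · intro i
      cases i
      · have e : {y | y ∈ orbit G v ∧ y ≠ v ∧ c y = false} = {w : V | w ≠ v ∧ c w = false} := by
          ext y
          simp only [Set.mem_ofPred_eq, horb y, true_and]
        rw [e, h77]
        rfl
      · have e : {y | y ∈ orbit G v ∧ y ≠ v ∧ c y = true} = {w : V | w ≠ v ∧ c w = true} := by
          ext y
          simp only [Set.mem_ofPred_eq, horb y, true_and]
        rw [e, h22]
        rfl
    · intro y z _ _ hy hz hc
      exact hK y z hy hz hc
    · decide
    · have hne : {w : V | w ≠ v ∧ c w = true}.Nonempty := by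
        apply Set.nonempty_of_ncard_ne_zero
        rw [h22]; norm_num
      obtain ⟨w, hw, -⟩ := hne
      obtain ⟨g, hg⟩ := htr w
      exact ⟨g, by rw [hg]; exact hw⟩
  exact simple_of_coatom_stab v htr hco hS
    (fun N hN h1 h2 => no_regular_100 v c htr hK h22 hV N hN h1 h2)

end Cfsg.Agent.H22.Crit
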