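import Cfsg.Prelude.Def_Sporadic
import Cfsg.Agent.H22.HSOdd
import Cfsg.Agent.H22.SimpleCrit
import Cfsg.Agent.H22.W22Aut

/-!
# The even automorphisms of the point-block graph of an S(3, 6, 22) form a simple group

The group of automorphisms of the graph inducing an even permutation of the 100 vertices has
index 2, it is transitive, and the stabiliser of the extra vertex is the simple subgroup of index 2
of the automorphism group of the Steiner system. The simplicity follows from the criterion of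
`SimpleCrit`.
-/

set_option autoImplicit false

namespace Cfsg.Agent.H22.HSS

open Cfsg Finset
open scoped Pointwise

/-- fixing the parity in a transitive action -/
theorem exists_even {A Ω : Type*} [Group A] [MulAction A Ω] (χ : A →* ℤˣ) (S : Set Ω)
    (htr : ∀ x ∈ S, ∀ y ∈ S, ∃ g : A, g • x = y) (τ₀ : A) (hτ₀ : χ τ₀ = -1) (x₀ : Ω)
    (hx₀ : x₀ ∈ S) (hfix : τ₀ • x₀ = x₀) :
    ∀ x ∈ S, ∀ y ∈ S, ∃ g : A, χ g = 1 ∧ g • x = y := by
  intro x hx y hy
  obtain ⟨g, hg⟩ := htr x hx y hy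
  rcases Int.units_eq_one_or (χ g) with h | h
  · exact ⟨g, h, hg⟩
  · obtain ⟨h', hh'⟩ := htr x₀ hx₀ y hy
    refine ⟨h' * τ₀ * h'⁻¹ * g, ?_, ?_⟩
    · rw [map_mul, map_mul, map_mul, map_inv, hτ₀, h, mul_comm (χ h') (-1), mul_assoc (-1),
        mul_inv_cancel, mul_one]
      decide
    · rw [mul_smul, hg, mul_smul, mul_smul, ← hh', inv_smul_smul, hfix]

/-- a surjective character has a kernel of index two -/
theorem index_ker_two {A : Type*} [Group A] (χ : A →* ℤˣ) (τ₀ : A) (hτ₀ : χ τ₀ = -1) :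
    χ.ker.index = 2 := by
  have hsurj : Function.Surjective χ := by
    intro u
    rcases Int.units_eq_one_or u with rfl | rfl
    · exact ⟨1, map_one _⟩
    · exact ⟨_, hτ₀⟩
  rw [Subgroup.index_ker, MonoidHom.range_eq_top.2 hsurj, Subgroup.card_top,
    Nat.card_eq_fintype_card, Fintype.card_units_int]

/-- a simple subgroup of index two is the kernel of every nontrivial character -/
theorem ker_eq_of_simple {A : Type*} [Group A] (χ : A →* ℤˣ) (τ₀ : A) (hτ₀ : χ τ₀ = -1)
    (M : Subgroup A) (hMi : M.index = 2) (hMs : IsSimpleGroup M) (hMc : 2 < Nat.card M) :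
    χ.ker = M := by
  have hle : M ≤ χ.ker := by
    rcases hMs.eq_bot_or_eq_top_of_normal (χ.comp M.subtype).ker
      (MonoidHom.normal_ker (χ.comp M.subtype)) with h | h
    · exfalso
      have hinj : Function.Injective (χ.comp M.subtype) :=
        (MonoidHom.ker_eq_bot_iff (χ.comp M.subtype)).1 h
      have := Nat.card_le_card_of_injective _ hinj
      rw [Nat.card_eq_fintype_card (α := ℤˣ), Fintype.card_units_int] at this
      omega
    · intro m hm
      have h1 : (⟨m, hm⟩ : ↥M) ∈ (χ.comp M.subtype).ker := by rw [h]; trivial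
      exact MonoidHom.mem_ker.2 (MonoidHom.mem_ker.1 h1)
  have h1 := Subgroup.relIndex_mul_index hle
  rw [index_ker_two χ τ₀ hτ₀, hMi] at h1
  have h2 : M.relIndex χ.ker = 1 := by omega
  exact le_antisymm (Subgroup.relIndex_eq_one.1 h2) hle

variable {α : Type*} [Fintype α] [DecidableEq α] {B : Set (Finset α)}

omit [Fintype α] in
theorem autOf_mul (τ τ' : setSystemAut B) :
    HS.autOf (τ * τ') = HS.autOf τ * HS.autOf τ' := by
  apply RelIso.ext
  rintro (_ | a | b)
  · rfl
  · rfl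
  · show HS.autOf (τ * τ') (some (Sum.inr b)) = HS.autOf τ (HS.autOf τ' (some (Sum.inr b)))
    obtain ⟨b1, e1, h1⟩ := HS.autOf_inr (τ * τ') b
    obtain ⟨b2, e2, h2⟩ := HS.autOf_inr τ' b
    obtain ⟨b3, e3, h3⟩ := HS.autOf_inr τ b2
    rw [e1, e2, e3]
    congr 2
    apply Subtype.ext
    rw [h1, h3, h2, Finset.image_image]
    rfl

/-- `autOf` as a group homomorphism -/
def autHom (B : Set (Finset α)) :
    setSystemAut B →* (pointBlockGraph B ≃g pointBlockGraph B) :=
  MonoidHom.mk' HS.autOf autOf_mul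

/-- the colouring of the vertices: the points are `true` -/
def col (B : Set (Finset α)) : Option (α ⊕ ↥B) → Bool
  | some (Sum.inl _) => true
  | _ => false

section
variable [Fintype ↥B]

/-- the sign of the permutation of the vertices induced by a graph automorphism -/
def sgn (B : Set (Finset α)) [Fintype ↥B] : (pointBlockGraph B ≃g pointBlockGraph B) →* ℤˣ :=
  Equiv.Perm.sign.comp
    (MulAction.toPermHom (pointBlockGraph B ≃g pointBlockGraph B) (Option (α ⊕ ↥B)))

theorem sgn_apply (φ : pointBlockGraph B ≃g pointBlockGraph B) :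
    sgn B φ = Equiv.Perm.sign φ.toEquiv := rfl

theorem finite_aut : Finite (pointBlockGraph B ≃g pointBlockGraph B) :=
  DFunLike.finite _

theorem card_ker (hα : Fintype.card α = 22) (hB : IsSteinerSystem 3 6 B)
    (τ₀ : setSystemAut B) (hτ₀ : sgn B (HS.autOf τ₀) = -1) :
    Nat.card (sgn B).ker = 44352000 := by
  have hidx := index_ker_two (sgn B) _ hτ₀
  have h := Subgroup.index_mul_card (sgn B).ker
  rw [hidx, HS.card_aut hα hB, W22.card_aut hα hB] at h
  omega

theorem exists_even_pt (hα : Fintype.card α = 22) (hB : IsSteinerSystem 3 6 B)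
    (χ : setSystemAut B →* ℤˣ) (τ₀ : setSystemAut B) (hτ₀ : χ τ₀ = -1) (a₁ : α)
    (ha₁ : τ₀.1 a₁ = a₁) (a a' : α) : ∃ τ : setSystemAut B, χ τ = 1 ∧ τ.1 a = a' := by
  haveI := W22.three_trans hα hB
  haveI : MulAction.IsMultiplyPretransitive (setSystemAut B) α 1 :=
    MulAction.isMultiplyPretransitive_of_le (n := 3) (by norm_num)
      (by rw [Nat.card_eq_fintype_card, hα]; norm_num)
  haveI : MulAction.IsPretransitive (setSystemAut B) α :=
    MulAction.is_one_pretransitive_iff.1 inferInstance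
  exact exists_even χ Set.univ (fun x _ y _ => MulAction.exists_smul_eq _ x y) τ₀ hτ₀ a₁ trivial
    ha₁ a trivial a' trivial

theorem exists_even_blk (hα : Fintype.card α = 22) (hB : IsSteinerSystem 3 6 B)
    (χ : setSystemAut B →* ℤˣ) (τ₀ : setSystemAut B) (hτ₀ : χ τ₀ = -1) (b₁ : Finset α)
    (hb₁ : b₁ ∈ B) (hfix : b₁.image τ₀.1 = b₁) (b b' : Finset α) (hb : b ∈ B) (hb' : b' ∈ B) :
    ∃ τ : setSystemAut B, χ τ = 1 ∧ b.image τ.1 = b' := by
  have hoff : ∀ x ∈ B, ∃ p : α, p ∉ x := by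
    intro x hx
    have hlt : x.card < (Finset.univ : Finset α).card := by
      rw [hB.1 x hx, Finset.card_univ, hα]; norm_num
    obtain ⟨z, -, hz⟩ := Finset.exists_mem_notMem_of_card_lt_card hlt
    exact ⟨z, hz⟩
  have htr : ∀ x ∈ B, ∀ y ∈ B, ∃ g : setSystemAut B, g • x = y := by
    intro x hx y hy
    obtain ⟨p, hp⟩ := hoff x hx
    obtain ⟨p', hp'⟩ := hoff y hy
    obtain ⟨f, hfi, hf⟩ := W22.exists_map x y (by rw [hB.1 x hx, hB.1 y hy]) p'
    obtain ⟨g, -, -, h3⟩ := W22.exists_aut hα hB hx hp hy hp' f hfi hf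
    refine ⟨g, ?_⟩
    show (g : Equiv.Perm α) • x = y
    rw [W22.smul_finset_eq]
    exact h3
  obtain ⟨g, h1, h2⟩ := exists_even χ B htr τ₀ hτ₀ b₁ hb₁ (by
    show (τ₀ : Equiv.Perm α) • b₁ = b₁
    rw [W22.smul_finset_eq]
    exact hfix) b hb b' hb'
  refine ⟨g, h1, ?_⟩
  rw [← W22.smul_finset_eq]
  exact h2

theorem stab_simple (hα : Fintype.card α = 22) (hB : IsSteinerSystem 3 6 B)
    (hS : IsSimpleGroup ((sgn B).comp (autHom B)).ker) :
    IsSimpleGroup (MulAction.stabilizer (sgn B).ker (none : Option (α ⊕ ↥B))) := by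
  have h1 : ∀ τ : ↥((sgn B).comp (autHom B)).ker,
      ((autHom B).comp ((sgn B).comp (autHom B)).ker.subtype) τ ∈ (sgn B).ker := fun τ => τ.2
  have h2 : ∀ τ : ↥((sgn B).comp (autHom B)).ker,
      (((autHom B).comp ((sgn B).comp (autHom B)).ker.subtype).codRestrict (sgn B).ker h1) τ ∈
        MulAction.stabilizer (sgn B).ker (none : Option (α ⊕ ↥B)) := fun τ => by
    rw [MulAction.mem_stabilizer_iff]
    rfl
  have hinj : Function.Injective
      ((((autHom B).comp ((sgn B).comp (autHom B)).ker.subtype).codRestrict (sgn B).ker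
        h1).codRestrict (MulAction.stabilizer (sgn B).ker (none : Option (α ⊕ ↥B))) h2) := by
    intro τ τ' h
    have : HS.autOf τ.1 = HS.autOf τ'.1 :=
      congrArg (fun k : ↥(MulAction.stabilizer (sgn B).ker (none : Option (α ⊕ ↥B))) =>
        (k.1.1 : pointBlockGraph B ≃g pointBlockGraph B)) h
    exact Subtype.ext (HS.autOf_injective this)
  have hsurj : Function.Surjective
      ((((autHom B).comp ((sgn B).comp (autHom B)).ker.subtype).codRestrict (sgn B).ker
        h1).codRestrict (MulAction.stabilizer (sgn B).ker (none : Option (α ⊕ ↥B))) h2) := by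
    rintro ⟨⟨σ, hσ⟩, hk⟩
    have hσ0 : σ none = none := MulAction.mem_stabilizer_iff.1 hk
    obtain ⟨τ, hτ⟩ := HS.exists_autOf hα hB σ hσ0
    have hτk : τ ∈ ((sgn B).comp (autHom B)).ker := by
      rw [MonoidHom.mem_ker]
      show sgn B (HS.autOf τ) = 1
      rw [hτ]
      exact MonoidHom.mem_ker.1 hσ
    refine ⟨⟨τ, hτk⟩, ?_⟩
    apply Subtype.ext
    apply Subtype.ext
    exact hτ
  exact (MulEquiv.ofBijective _ ⟨hinj, hsurj⟩).symm.isSimpleGroup

/-- the even automorphisms of the point-block graph form a simple group of order 44352000 -/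
theorem main (hα : Fintype.card α = 22) (hB : IsSteinerSystem 3 6 B)
    (hM : ∃ M : Subgroup (setSystemAut B), M.index = 2 ∧ IsM22 M) :
    ∃ H : Subgroup (pointBlockGraph B ≃g pointBlockGraph B), IsHS H := by
  obtain ⟨τ₀, hτ₀, ⟨b₁, hb₁, hb₁τ⟩, a₁, ha₁⟩ := HSOdd.exists_odd hα hB
  obtain ⟨M, hMi, hMs, hMc⟩ := hM
  have hχ₀ : ((sgn B).comp (autHom B)) τ₀ = -1 := hτ₀
  have hker := ker_eq_of_simple _ τ₀ hχ₀ M hMi hMs (by rw [hMc]; norm_num)
  have hS : IsSimpleGroup ((sgn B).comp (autHom B)).ker := by rw [hker]; exact hMs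
  refine ⟨(sgn B).ker, ?_, card_ker hα hB τ₀ hτ₀⟩
  haveI : Finite (pointBlockGraph B ≃g pointBlockGraph B) := finite_aut
  have htrX : ∀ x ∈ (Set.univ : Set (Option (α ⊕ ↥B))), ∀ y ∈ (Set.univ : Set (Option (α ⊕ ↥B))),
      ∃ g : pointBlockGraph B ≃g pointBlockGraph B, g • x = y := by
    intro x _ y _
    obtain ⟨φ, hφ⟩ := HS.exists_aut_none hα hB x
    obtain ⟨ψ, hψ⟩ := HS.exists_aut_none hα hB y
    refine ⟨ψ⁻¹ * φ, ?_⟩
    show ψ.symm (φ x) = y
    rw [hφ, ← hψ]
    exact ψ.symm_apply_apply y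
  apply Crit.simple_100 (V := Option (α ⊕ ↥B)) none (col B)
  · intro w
    obtain ⟨g, hg1, hg2⟩ := exists_even (sgn B) Set.univ htrX (HS.autOf τ₀) hτ₀ none trivial rfl
      none trivial w trivial
    exact ⟨⟨g, hg1⟩, hg2⟩
  · rintro (_ | a | b) (_ | a' | b') hy hz hc
    · exact absurd rfl hy
    · exact absurd rfl hy
    · exact absurd rfl hy
    · exact absurd rfl hz
    · obtain ⟨τ, h1, h2⟩ := exists_even_pt hα hB _ τ₀ hχ₀ a₁ ha₁ a a'
      refine ⟨⟨HS.autOf τ, h1⟩, rfl, ?_⟩
      show HS.autOf τ (some (Sum.inl a)) = some (Sum.inl a')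
      rw [HS.autOf_inl, h2]
    · exact absurd hc (by simp [col])
    · exact absurd rfl hz
    · exact absurd hc (by simp [col])
    · obtain ⟨τ, h1, h2⟩ := exists_even_blk hα hB _ τ₀ hχ₀ b₁ hb₁ hb₁τ b.1 b'.1 b.2 b'.2
      refine ⟨⟨HS.autOf τ, h1⟩, rfl, ?_⟩
      obtain ⟨b'', e1, e2⟩ := HS.autOf_inr τ b
      show HS.autOf τ (some (Sum.inr b)) = some (Sum.inr b')
      rw [e1]
      congr 2
      exact Subtype.ext (e2.trans h2)
  · have e : {w : Option (α ⊕ ↥B) | w ≠ none ∧ col B w = true} =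
        (fun a : α => some (Sum.inl a)) '' Set.univ := by
      ext w
      rcases w with _ | a | b <;> simp [col]
    rw [e, Set.ncard_image_of_injective _ (fun a a' h => Sum.inl.inj (Option.some.inj h)),
      Set.ncard_univ, Nat.card_eq_fintype_card, hα]
  · rw [Nat.card_eq_fintype_card]
    exact (HS.hyp_pb hα hB).card
  · exact stab_simple hα hB hS

end

end Cfsg.Agent.H22.HSS
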