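import Cfsg.Agent.H23.GraphFix
import Cfsg.Agent.H46.OSDefs

/-!
# OS-GRAPH6 (helper22, for helper46's S2159): the graph automorphisms of `D₄(F)`

A graph automorphism of `D₄(F)` is determined by its diagram symmetry, the six symmetries of the diagram are the
permutations of the outer nodes, and all of them are realised by words in a transposition automorphism `a` and a
triality `c`; with `b = a * c` the graph automorphisms are `1, a, b, ab, ba, aba`.
-/

set_option autoImplicit false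
set_option maxRecDepth 100000

namespace Cfsg.Agent.H22.OS

open Cfsg Cfsg.Lie Cfsg.Agent.H23 Cfsg.Agent.H46.OS

universe u

/-- Composition of two node tables: first `L'`, then `L`. -/
def lmul (L L' : List ℕ) : List ℕ :=
  [L.getD (L'.getD 0 0) 0, L.getD (L'.getD 1 0) 0, L.getD (L'.getD 2 0) 0, L.getD (L'.getD 3 0) 0]

theorem lmul_getD (L L' : List ℕ) : ∀ i < chevD4.rank, (lmul L L').getD i 0 = L.getD (L'.getD i 0) 0 := by
  intro i hi
  have hi4 : i < 4 := hi
  interval_cases i <;> rfl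

/-- The six symmetries of the diagram, as tables. -/
def six : List (List ℕ) := [[0, 1, 2, 3], [0, 1, 3, 2], [2, 1, 0, 3], [3, 1, 2, 0], [2, 1, 3, 0], [3, 1, 0, 2]]

/-- The three transpositions. -/
def tr3 : List (List ℕ) := [[0, 1, 3, 2], [2, 1, 0, 3], [3, 1, 2, 0]]

/-- The two 3-cycles. -/
def cy2 : List (List ℕ) := [[2, 1, 3, 0], [3, 1, 0, 2]]

theorem six_lt : ∀ L ∈ six, ∀ i < chevD4.rank, L.getD i 0 < chevD4.rank := by decide

theorem tr3_of : ∀ L ∈ six, (¬ ∀ i < chevD4.rank, L.getD i 0 = i) →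
    (∀ i < chevD4.rank, L.getD (L.getD i 0) 0 = i) → L ∈ tr3 := by decide

theorem cy2_of : ∀ L ∈ six, (¬ ∀ i < chevD4.rank, L.getD i 0 = i) →
    (∀ i < chevD4.rank, L.getD (L.getD (L.getD i 0) 0) 0 = i) → L ∈ cy2 := by decide

theorem tr3_sq : ∀ La ∈ tr3, lmul La La = [0, 1, 2, 3] := by decide

theorem b_sq : ∀ La ∈ tr3, ∀ Lc ∈ cy2, lmul (lmul La Lc) (lmul La Lc) = [0, 1, 2, 3] := by decide

theorem ab_cube : ∀ La ∈ tr3, ∀ Lc ∈ cy2,
    lmul (lmul La (lmul La Lc)) (lmul (lmul La (lmul La Lc)) (lmul La (lmul La Lc))) = [0, 1, 2, 3] := by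
  decide

theorem six_cases : ∀ La ∈ tr3, ∀ Lc ∈ cy2, ∀ L ∈ six,
    L = [0, 1, 2, 3] ∨ L = La ∨ L = lmul La Lc ∨ L = lmul La (lmul La Lc) ∨ L = lmul (lmul La Lc) La ∨
      L = lmul (lmul La (lmul La Lc)) La := by decide

section

variable {F : Type u} [Field F]

/-- The automorphism `φ` acts on the fundamental root elements through the table `L`. -/
structure LA (F : Type u) [Field F] (L : List ℕ) (φ : MulAut ↥(chevD4.group F)) : Prop where
  lt : ∀ i < chevD4.rank, L.getD i 0 < chevD4.rank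
  act : ListAct chevD4 F L φ.toMonoidHom

theorem LA.mul {L L' : List ℕ} {φ ψ : MulAut ↥(chevD4.group F)} (hφ : LA F L φ) (hψ : LA F L' ψ) :
    LA F (lmul L L') (φ * ψ) where
  lt := fun i hi => by
    rw [lmul_getD L L' i hi]
    exact hφ.lt _ (hψ.lt i hi)
  act := fun g i t hi =>
    (ListAct.comp hψ.act hφ.act (L'' := lmul L L') (fun i hi => ⟨hψ.lt i hi, lmul_getD L L' i hi⟩)) g i t hi

theorem LA.one : LA F [0, 1, 2, 3] (1 : MulAut ↥(chevD4.group F)) where
  lt := by decide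
  act := fun g i t hi =>
    (ListAct.one (D := chevD4) (F := F) (L := [0, 1, 2, 3]) (by decide)) g i t hi

theorem LA.ext {L : List ℕ} {φ ψ : MulAut ↥(chevD4.group F)} (hφ : LA F L φ) (hψ : LA F L ψ) : φ = ψ := by
  obtain ⟨z, η, w, rT, par, dep, hP⟩ := packF_all (F := F) chevD4 (by simp)
  have e := ListAct.ext hP.packB.sem hP.packB.semN hP.packB.tab hφ.act hψ.act
  apply MulEquiv.ext
  intro g
  exact DFunLike.congr_fun e g

theorem LA.congr {L L' : List ℕ} {φ : MulAut ↥(chevD4.group F)} (hφ : LA F L φ) (h : L = L') : LA F L' φ :=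
  h ▸ hφ

/-- An automorphism acting on the fundamental root elements through a diagram symmetry acts through one of the
six tables. -/
theorem la_of_sym {π : Equiv.Perm (Fin chevD4.rank)} (hπ : chevD4.IsDiagramSymmetry π)
    {φ : MulAut ↥(chevD4.group F)}
    (h : ∀ (g : ↥(chevD4.group F)) (i : Fin chevD4.rank) (t : F),
      (((g : GL chevD4.Idx F) : Matrix chevD4.Idx chevD4.Idx F) = chevD4.x F (chevD4.simple i) t →
        ((φ g : GL chevD4.Idx F) : Matrix chevD4.Idx chevD4.Idx F) = chevD4.x F (chevD4.simple (π i)) t) ∧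
      (((g : GL chevD4.Idx F) : Matrix chevD4.Idx chevD4.Idx F) = chevD4.x F (chevD4.neg (chevD4.simple i)) t →
        ((φ g : GL chevD4.Idx F) : Matrix chevD4.Idx chevD4.Idx F) =
          chevD4.x F (chevD4.neg (chevD4.simple (π i))) t)) :
    ∃ L ∈ six, (∀ i (hi : i < chevD4.rank), ((π ⟨i, hi⟩ : Fin chevD4.rank) : ℕ) = L.getD i 0) ∧ LA F L φ := by
  have hcase := d4_sym_cases (π ⟨0, by decide⟩) (π ⟨1, by decide⟩) (π ⟨2, by decide⟩) (π ⟨3, by decide⟩)
    ⟨fun h => absurd (π.injective h) (by decide), fun h => absurd (π.injective h) (by decide),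
    fun h => absurd (π.injective h) (by decide), fun h => absurd (π.injective h) (by decide),
    fun h => absurd (π.injective h) (by decide), fun h => absurd (π.injective h) (by decide),
    hπ ⟨1, by decide⟩ ⟨0, by decide⟩ (by decide), hπ ⟨1, by decide⟩ ⟨2, by decide⟩ (by decide),
    hπ ⟨1, by decide⟩ ⟨3, by decide⟩ (by decide)⟩
  have hL : ∃ L ∈ six, ∀ i (hi : i < chevD4.rank), ((π ⟨i, hi⟩ : Fin chevD4.rank) : ℕ) = L.getD i 0 := by
    refine ⟨_, hcase, ?_⟩
    intro i hi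
    have hi4 : i < 4 := hi
    interval_cases i <;> rfl
  obtain ⟨L, hLmem, hL⟩ := hL
  refine ⟨L, hLmem, hL, six_lt L hLmem, ?_⟩
  intro g i t hi
  have h1 := h g ⟨i, hi⟩ t
  simp only [hL i hi] at h1
  exact h1

/-- A graph automorphism of `D₄(F)` acts through one of the six tables. -/
theorem la_of_graph {φ : MulAut ↥(chevD4.group F)} (hφ : chevD4.IsGraphAut φ) : ∃ L ∈ six, LA F L φ := by
  obtain ⟨π, hπ, hg⟩ := hφ
  obtain ⟨L, hL, -, hLA⟩ := la_of_sym (F := F) (φ := φ) hπ (by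
    intro g i t
    have h := hg g i t
    rw [d4_graphExp (ringChar F) i (π i) i.isLt (π i).isLt, pow_one] at h
    exact h)
  exact ⟨L, hL, hLA⟩

theorem perm_eq_one {π : Equiv.Perm (Fin chevD4.rank)} {L : List ℕ}
    (hL : ∀ i (hi : i < chevD4.rank), ((π ⟨i, hi⟩ : Fin chevD4.rank) : ℕ) = L.getD i 0)
    (h : ∀ i < chevD4.rank, L.getD i 0 = i) : π = 1 := by
  apply Equiv.ext
  intro i
  apply Fin.ext
  have h1 := hL i.val i.isLt
  rw [h i.val i.isLt] at h1
  exact h1

theorem perm_apply {π : Equiv.Perm (Fin chevD4.rank)} {L : List ℕ}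
    (hL : ∀ i (hi : i < chevD4.rank), ((π ⟨i, hi⟩ : Fin chevD4.rank) : ℕ) = L.getD i 0)
    (j : Fin chevD4.rank) : ((π j : Fin chevD4.rank) : ℕ) = L.getD j.val 0 := hL j.val j.isLt

end

/-- **OS-GRAPH6**: the graph automorphisms of `D₄(F)` are the six elements of a group generated by two
involutions `a`, `b` with `(ab)³ = 1`. -/
theorem graph6 (hT : StD4T.{u}) (hC : StD4C.{u}) : StGraph6.{u} := by
  intro F _ _
  obtain ⟨πa, a, ⟨hπa1, hπa2⟩, hsa, ha⟩ := hT F
  obtain ⟨πc, c, ⟨hπc1, hπc3⟩, hsc, hc⟩ := hC F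
  obtain ⟨La, hLa6, hLa, hA⟩ := la_of_sym (F := F) hsa ha
  obtain ⟨Lc, hLc6, hLc, hCc⟩ := la_of_sym (F := F) hsc hc
  have hLa3 : La ∈ tr3 := by
    apply tr3_of La hLa6
    · intro h
      exact hπa1 (perm_eq_one hLa h)
    · intro i hi
      have h1 : πa (πa ⟨i, hi⟩) = ⟨i, hi⟩ := by
        have := congrArg (fun p : Equiv.Perm (Fin chevD4.rank) => p ⟨i, hi⟩) hπa2
        exact this
      have h2 := perm_apply hLa (πa ⟨i, hi⟩)
      rw [h1, perm_apply hLa ⟨i, hi⟩] at h2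
      exact h2.symm
  have hLc2 : Lc ∈ cy2 := by
    apply cy2_of Lc hLc6
    · intro h
      exact hπc1 (perm_eq_one hLc h)
    · intro i hi
      have h1 : πc (πc (πc ⟨i, hi⟩)) = ⟨i, hi⟩ := by
        have := congrArg (fun p : Equiv.Perm (Fin chevD4.rank) => p ⟨i, hi⟩) hπc3
        exact this
      have h2 := perm_apply hLc (πc (πc ⟨i, hi⟩))
      rw [h1, perm_apply hLc (πc ⟨i, hi⟩), perm_apply hLc ⟨i, hi⟩] at h2
      exact h2.symm
  have hB : LA F (lmul La Lc) (a * c) := hA.mul hCc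
  have hAB : LA F (lmul La (lmul La Lc)) (a * (a * c)) := hA.mul hB
  refine ⟨a, a * c, ?_, ?_, ?_, ?_⟩
  · exact ((hA.mul hA).congr (tr3_sq La hLa3)).ext LA.one
  · exact ((hB.mul hB).congr (b_sq La hLa3 Lc hLc2)).ext LA.one
  · rw [pow_three]
    exact ((hAB.mul (hAB.mul hAB)).congr (ab_cube La hLa3 Lc hLc2)).ext LA.one
  · intro g hg
    obtain ⟨L, hL6, hG⟩ := la_of_graph hg
    rcases six_cases La hLa3 Lc hLc2 L hL6 with h | h | h | h | h | h
    · exact Or.inl ((hG.congr h).ext LA.one)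
    · exact Or.inr (Or.inl ((hG.congr h).ext hA))
    · exact Or.inr (Or.inr (Or.inl ((hG.congr h).ext hB)))
    · exact Or.inr (Or.inr (Or.inr (Or.inl ((hG.congr h).ext hAB))))
    · exact Or.inr (Or.inr (Or.inr (Or.inr (Or.inl ((hG.congr h).ext (hB.mul hA))))))
    · exact Or.inr (Or.inr (Or.inr (Or.inr (Or.inr ((hG.congr h).ext (hAB.mul hA))))))

example (hT : Cfsg.Agent.H46.OS.StD4T.{u}) (hC : Cfsg.Agent.H46.OS.StD4C.{u}) :
    Cfsg.Agent.H46.OS.StGraph6.{u} := graph6.{u} hT hC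

end Cfsg.Agent.H22.OS
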