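import Cfsg.Agent.H22.ReeGen
/-!
Team project S2343 (helper45), Ree-library piece HCONJ in matrix form (helper22): conjugation of
the Ree words `R(0,u,v)` by the torus element `h(τ s, s)`.
-/
set_option autoImplicit false
open Cfsg Cfsg.Lie

namespace Cfsg.Agent.H22.S43

open Cfsg.Agent.H22 Cfsg.Agent.H22.GEx Cfsg.Agent.H22.Ree

variable {K : Type*} [Field K] [CharP K 3] {e : ℕ} (C : Ctx K e)

theorem chi10_ne_zero (s : K) (hs : s ≠ 0) : chi (C.τ s) s 10 ≠ 0 := by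
  obtain ⟨-, -, -, -, v10, -⟩ := chi_vals (C.τ s) s
  rw [v10]
  exact mul_ne_zero (zpow_ne_zero _ ((map_ne_zero C.τ).mpr hs)) (zpow_ne_zero _ hs)

theorem hh_mul_R0 [Fintype K] {m : ℕ} (hK : Fintype.card K = 3 ^ (2 * m + 1)) (s : K)
    (hs : s ≠ 0) (u v : K) :
    (C.hh (C.τ s) s : GL chevG2.Idx K) * (C.SP.R C.τ 0 u v : GL chevG2.Idx K) =
      (C.SP.R C.τ 0 (chi (C.τ s) s 10 * u) (s * v) : GL chevG2.Idx K) *
        (C.hh (C.τ s) s : GL chevG2.Idx K) := by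
  have hτs : C.τ s ≠ 0 := (map_ne_zero C.τ).mpr hs
  obtain ⟨-, -, -, -, -, v11⟩ := chi_vals (C.τ s) s
  have hχ11 : chi (C.τ s) s 11 = s := by
    rw [v11, zpow_zero, zpow_one, one_mul]
  have h1 : C.hh (C.τ s) s * C.SP.R C.τ 0 u v * (C.hh (C.τ s) s)⁻¹ =
      C.SP.E (chi (C.τ s) s 6 * 0) (chi (C.τ s) s 7 * C.τ 0) (chi (C.τ s) s 8 * C.τ u)
        (chi (C.τ s) s 9 * C.τ v) (chi (C.τ s) s 10 * (u + C.τ 0 ^ 3 * 0))
        (chi (C.τ s) s 11 * (v + C.τ 0 ^ 3 * 0 ^ 2)) := by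
    rw [USys.R_eq_E (signs_pos K C.θ), C.hh_mul_E _ _ hτs hs, mul_inv_cancel_right]
  have hmem : ((C.hh (C.τ s) s * C.SP.R C.τ 0 u v * (C.hh (C.τ s) s)⁻¹ : ↥(chevG2.group K)) :
      GL chevG2.Idx K) ∈ chevG2.posUnipotent K ⊓ twistedG2 K e := by
    constructor
    · rw [h1]; exact C.E_mem_U _ _ _ _ _ _
    · show (C.hh (C.τ s) s : GL chevG2.Idx K) * (C.SP.R C.τ 0 u v : GL chevG2.Idx K) *
        (C.hh (C.τ s) s : GL chevG2.Idx K)⁻¹ ∈ twistedG2 K e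
      exact mul_mem (mul_mem (C.hh_mem hK s hs) (C.RP_mem 0 u v)) (inv_mem (C.hh_mem hK s hs))
  obtain ⟨⟨t', u', v'⟩, hq⟩ := C.reeEl_bij.2 ⟨_, hmem⟩
  have hq' : (C.SP.R C.τ t' u' v' : GL chevG2.Idx K) =
      ((C.hh (C.τ s) s * C.SP.R C.τ 0 u v * (C.hh (C.τ s) s)⁻¹ : ↥(chevG2.group K)) :
        GL chevG2.Idx K) :=
    congrArg (fun z : ↥(chevG2.posUnipotent K ⊓ twistedG2 K e) => (z : GL chevG2.Idx K)) hq
  have hq'' : C.SP.R C.τ t' u' v' =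
      C.SP.E (chi (C.τ s) s 6 * 0) (chi (C.τ s) s 7 * C.τ 0) (chi (C.τ s) s 8 * C.τ u)
        (chi (C.τ s) s 9 * C.τ v) (chi (C.τ s) s 10 * (u + C.τ 0 ^ 3 * 0))
        (chi (C.τ s) s 11 * (v + C.τ 0 ^ 3 * 0 ^ 2)) := by
    rw [← h1]; exact Subtype.ext hq'
  rw [USys.R_eq_E (signs_pos K C.θ)] at hq''
  obtain ⟨a6, -, -, -, a10, a11⟩ := C.E_inj _ _ _ _ _ _ _ _ _ _ _ _ hq''
  have ht' : t' = 0 := by rw [a6, mul_zero]
  rw [ht'] at a10 a11 hq'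
  have z2 : (0 : K) ^ 2 = 0 := by norm_num
  simp only [mul_zero, add_zero] at a10
  rw [z2] at a11
  simp only [mul_zero, add_zero] at a11
  rw [hχ11] at a11
  rw [← a10, ← a11, hq', Subgroup.coe_mul, Subgroup.coe_mul, Subgroup.coe_inv,
    inv_mul_cancel_right]

end Cfsg.Agent.H22.S43
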