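import Cfsg.Agent.H45.S43Ree
import Cfsg.Agent.H22.S43Core
/-!
Team project S2343 (helper45), Ree-library piece HCONJ (helper22).
-/
set_option autoImplicit false
set_option synthInstance.maxHeartbeats 400000
open Cfsg Cfsg.Lie

namespace Cfsg.Agent.H22.S43

open Cfsg.Agent.H22 Cfsg.Agent.H22.GEx Cfsg.Agent.H22.Ree Cfsg.Agent.H45.S43

/-- (HCONJ) -/
theorem hconj {K : Type*} [Field K] [CharP K 3] {e : ℕ} (C : Ctx K e) [Fintype K] {m : ℕ}
    (hK : Fintype.card K = 3 ^ (2 * m + 1)) : StHConj C hK := by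
  intro s
  refine ⟨Units.mk0 (chi (C.τ (s : K)) (s : K) 10) (chi10_ne_zero C (s : K) s.ne_zero), ?_⟩
  intro u v
  apply Subtype.ext
  rw [Subgroup.coe_mul, Subgroup.coe_mul, hG_coe, rG_coe, rG_coe, Units.val_mk0]
  exact hh_mul_R0 C hK (s : K) s.ne_zero u v

example {K : Type*} [Field K] [CharP K 3] {e : ℕ} (C : Ctx K e) [Fintype K] {m : ℕ}
    (hK : Fintype.card K = 3 ^ (2 * m + 1)) : Cfsg.Agent.H45.S43.StHConj C hK := hconj C hK

end Cfsg.Agent.H22.S43
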