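import Cfsg.Agent.H22.S8OmA
import Cfsg.Agent.H22.S8OmB
import Cfsg.Agent.H22.S8OmFixA
import Cfsg.Agent.H22.ReeCube
/-!
Team project S2357 (helper45), Ree-library pieces UA, N3, U39 in general form (helper22).
-/
set_option autoImplicit false
set_option synthInstance.maxHeartbeats 400000
open Cfsg Cfsg.Lie
open scoped Pointwise

namespace Cfsg.Agent.H22.S7

open Cfsg.Agent.H22 Cfsg.Agent.H22.GEx Cfsg.Agent.H22.Ree Cfsg.Agent.H7.RT Cfsg.Agent.H45.S8
  Cfsg.Agent.H22.S8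

/-- two involutions of a group of order not divisible by 4 are conjugate -/
theorem invol_conj {B : Type*} [Group B] [Finite B] (h4 : ¬ 4 ∣ Nat.card B) (x y : B)
    (hx : x ≠ 1) (hx2 : x * x = 1) (hy : y ≠ 1) (hy2 : y * y = 1) :
    ∃ b : B, b * x * b⁻¹ = y := by
  have : Fact (Nat.Prime 2) := ⟨Nat.prime_two⟩
  have hox : orderOf x = 2 := orderOf_eq_prime (by rw [pow_two]; exact hx2) hx
  have hoy : orderOf y = 2 := orderOf_eq_prime (by rw [pow_two]; exact hy2) hy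
  have hpx : IsPGroup 2 ↥(Subgroup.zpowers x) :=
    IsPGroup.of_card (n := 1) (by rw [Nat.card_zpowers, hox, pow_one])
  have hpy : IsPGroup 2 ↥(Subgroup.zpowers y) :=
    IsPGroup.of_card (n := 1) (by rw [Nat.card_zpowers, hoy, pow_one])
  obtain ⟨P, hP⟩ := hpx.exists_le_sylow
  obtain ⟨Q, hQ⟩ := hpy.exists_le_sylow
  have hcard : ∀ S : Sylow 2 B, Nat.card ↥(S : Subgroup B) ≤ 2 := by
    intro S
    obtain ⟨k, hk⟩ := IsPGroup.iff_card.mp S.isPGroup'
    have hdvd : Nat.card ↥(S : Subgroup B) ∣ Nat.card B := Subgroup.card_subgroup_dvd_card _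
    rw [hk] at hdvd ⊢
    have hk2 : k < 2 := by
      by_contra hge
      exact h4 (dvd_trans (pow_dvd_pow 2 (Nat.le_of_not_lt hge)) hdvd)
    interval_cases k <;> norm_num
  have hPx : (P : Subgroup B) = Subgroup.zpowers x := by
    symm
    apply Subgroup.eq_of_le_of_card_ge hP
    rw [Nat.card_zpowers, hox]
    exact hcard P
  have hQy : (Q : Subgroup B) = Subgroup.zpowers y := by
    symm
    apply Subgroup.eq_of_le_of_card_ge hQ
    rw [Nat.card_zpowers, hoy]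
    exact hcard Q
  obtain ⟨b, rfl⟩ := MulAction.exists_smul_eq B P Q
  have hy' : y ∈ ((b • P : Sylow 2 B) : Subgroup B) := by
    rw [hQy]; exact Subgroup.mem_zpowers y
  rw [Sylow.coe_subgroup_smul, Subgroup.mem_pointwise_smul_iff_inv_smul_mem, MulAut.smul_def,
    MulAut.conj_inv_apply, hPx] at hy'
  have key : b⁻¹ * y * b = x := by
    obtain ⟨k, hk⟩ := Subgroup.mem_zpowers_iff.mp hy'
    rcases Int.emod_two_eq_zero_or_one k with h | h
    · exfalso
      apply hy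
      have hx1 : x ^ k = 1 := by
        obtain ⟨j, hj⟩ : ∃ j, k = 2 * j := ⟨k / 2, by omega⟩
        rw [hj, zpow_mul, zpow_ofNat, pow_two, hx2, one_zpow]
      rw [hx1] at hk
      calc y = b * (b⁻¹ * y * b) * b⁻¹ := by group
        _ = 1 := by rw [← hk]; group
    · obtain ⟨j, hj⟩ : ∃ j, k = 2 * j + 1 := ⟨k / 2, by omega⟩
      rw [← hk, hj, zpow_add, zpow_mul, zpow_ofNat, pow_two, hx2, one_zpow, one_mul, zpow_one]
  refine ⟨b, ?_⟩
  rw [← key]; group

section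

variable {K : Type*} [Field K] [CharP K 3] {e : ℕ} (C : Ctx K e)

theorem orderOf_rEl (x : K) : orderOf (rEl C x) = 3 ↔ x ≠ 0 := by
  have h1 : orderOf (rEl C x) = orderOf (C.reeEl (0, x, 0)) := by
    rw [← Subgroup.orderOf_coe (rEl C x), ← Subgroup.orderOf_coe (C.reeEl (0, x, 0))]
    rfl
  rw [h1, C.orderOf_reeEl]
  constructor
  · rintro ⟨-, h⟩ hx
    apply h
    rw [hx]; rfl
  · intro h
    refine ⟨rfl, ?_⟩
    intro h0
    exact h (congrArg Prod.fst h0)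

/-- elements of `B` fix the point `B¹` -/
theorem B_fix_one (b : ↥(twistedG2 K e)) (hb : (b : GL chevG2.Idx K) ∈ chevG2.borelSubgroup K) :
    b • (QuotientGroup.mk 1 : ↥(twistedG2 K e) ⧸ B1sub K e) = QuotientGroup.mk 1 := by
  show (QuotientGroup.mk (b * 1) : ↥(twistedG2 K e) ⧸ B1sub K e) = QuotientGroup.mk 1
  rw [mk_eq_iff, mul_one, OneMemClass.coe_one, mul_one]
  exact inv_mem hb

theorem mem_B1sub (x : ↥(twistedG2 K e)) :
    x ∈ B1sub K e ↔ (x : GL chevG2.Idx K) ∈ chevG2.borelSubgroup K := by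
  rw [Subgroup.mem_subgroupOf]
  constructor
  · intro h; exact h.1
  · intro h; exact ⟨h, x.2⟩

include C in
/-- conjugation by `B¹` preserves `U¹` -/
theorem conj_mem_U1 (b u : ↥(twistedG2 K e)) (hb : b ∈ B1sub K e) :
    u ∈ U1sub K e ↔ b * u * b⁻¹ ∈ U1sub K e := by
  have hbB := (mem_B1sub b).mp hb
  rw [mem_U1sub, mem_U1sub]
  constructor
  · intro hu
    exact C.B_conj_U _ _ hbB hu
  · intro hu
    have h := C.B_conj_U _ _ (inv_mem hbB) hu
    have e1 : (b : GL chevG2.Idx K)⁻¹ * ((b * u * b⁻¹ : ↥(twistedG2 K e)) : GL chevG2.Idx K) *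
        (b : GL chevG2.Idx K)⁻¹⁻¹ = (u : GL chevG2.Idx K) := by
      rw [Subgroup.coe_mul, Subgroup.coe_mul, Subgroup.coe_inv]; group
    rw [e1] at h
    exact h

include C in
/-- (UA), general form -/
theorem card_UA [Fintype K] {m : ℕ} (hK : Fintype.card K = 3 ^ (2 * m + 1)) (hcan : CanonG2 K)
    (a' : ↥(twistedG2 K e)) (ha' : a' ∈ B1sub K e) (h1 : a' ≠ 1) (h2 : a' * a' = 1) :
    Nat.card {u : ↥(twistedG2 K e) // u ∈ U1sub K e ∧ orderOf u = 3 ∧ u * a' = a' * u} =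
      3 ^ (2 * m + 1) - 1 := by
  classical
  -- `a'` is conjugate in `B¹` to `a`
  have h4 : ¬ 4 ∣ Nat.card ↥(B1sub K e) := by
    rw [card_B1sub C hK hcan]
    have hq : 3 ^ (2 * m + 1) % 4 = 3 := by
      rw [pow_succ, pow_mul]
      norm_num [Nat.mul_mod, Nat.pow_mod]
    have h5 : (3 ^ (2 * m + 1) - 1) % 4 = 2 := by omega
    have h6 : ((3 ^ (2 * m + 1)) ^ 3 * (3 ^ (2 * m + 1) - 1)) % 4 = 2 := by
      rw [Nat.mul_mod, Nat.pow_mod, hq, h5]
    omega
  have haB : aEl C ∈ B1sub K e := (mem_B1sub _).mpr (H_le_B (aEl_mem_H C))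
  obtain ⟨b, hb⟩ := invol_conj h4 (⟨aEl C, haB⟩ : ↥(B1sub K e)) ⟨a', ha'⟩
    (fun h => aEl_ne_one C (congrArg Subtype.val h))
    (Subtype.ext (aEl_mul_self C))
    (fun h => h1 (congrArg Subtype.val h))
    (Subtype.ext h2)
  have hb' : (b : ↥(twistedG2 K e)) * aEl C * (b : ↥(twistedG2 K e))⁻¹ = a' :=
    congrArg Subtype.val hb
  have hord : ∀ u : ↥(twistedG2 K e), orderOf ((b : ↥(twistedG2 K e)) * u *
      (b : ↥(twistedG2 K e))⁻¹) = orderOf u := by
    intro u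
    rw [← MulAut.conj_apply]
    exact MulEquiv.orderOf_eq _ _
  have e1 : {u : ↥(twistedG2 K e) // u ∈ U1sub K e ∧ orderOf u = 3 ∧ u * aEl C = aEl C * u} ≃
      {u : ↥(twistedG2 K e) // u ∈ U1sub K e ∧ orderOf u = 3 ∧ u * a' = a' * u} := by
    refine (MulAut.conj (b : ↥(twistedG2 K e))).toEquiv.subtypeEquiv ?_
    intro u
    show (u ∈ U1sub K e ∧ orderOf u = 3 ∧ u * aEl C = aEl C * u) ↔
      ((b : ↥(twistedG2 K e)) * u * (b : ↥(twistedG2 K e))⁻¹ ∈ U1sub K e ∧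
        orderOf ((b : ↥(twistedG2 K e)) * u * (b : ↥(twistedG2 K e))⁻¹) = 3 ∧
        (b : ↥(twistedG2 K e)) * u * (b : ↥(twistedG2 K e))⁻¹ * a' =
          a' * ((b : ↥(twistedG2 K e)) * u * (b : ↥(twistedG2 K e))⁻¹))
    rw [hord, ← conj_mem_U1 C _ u b.2, ← hb']
    have e2 : (b : ↥(twistedG2 K e)) * u * (b : ↥(twistedG2 K e))⁻¹ *
        ((b : ↥(twistedG2 K e)) * aEl C * (b : ↥(twistedG2 K e))⁻¹) =
        (b : ↥(twistedG2 K e)) * (u * aEl C) * (b : ↥(twistedG2 K e))⁻¹ := by group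
    have e3 : (b : ↥(twistedG2 K e)) * aEl C * (b : ↥(twistedG2 K e))⁻¹ *
        ((b : ↥(twistedG2 K e)) * u * (b : ↥(twistedG2 K e))⁻¹) =
        (b : ↥(twistedG2 K e)) * (aEl C * u) * (b : ↥(twistedG2 K e))⁻¹ := by group
    rw [e2, e3]
    constructor
    · rintro ⟨hu, ho, hc⟩
      exact ⟨hu, ho, by rw [hc]⟩
    · rintro ⟨hu, ho, hc⟩
      exact ⟨hu, ho, mul_left_cancel (mul_right_cancel hc)⟩
  rw [← Nat.card_congr e1]
  -- the count for `a`
  obtain ⟨f, hf⟩ : ∃ f : {x : K // ¬ (x = 0)} →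
      {u : ↥(twistedG2 K e) // u ∈ U1sub K e ∧ orderOf u = 3 ∧ u * aEl C = aEl C * u},
      ∀ x, ((f x : ↥(twistedG2 K e))) = rEl C x.1 :=
    ⟨fun x => ⟨rEl C x.1, (mem_U1sub _).mpr (rEl_mem_U C x.1), (orderOf_rEl C x.1).mpr x.2,
      (aEl_comm_rEl C x.1).symm⟩, fun x => rfl⟩
  have hinj : Function.Injective f := by
    intro x x' h
    have h' := congrArg (fun z : {u : ↥(twistedG2 K e) // u ∈ U1sub K e ∧ orderOf u = 3 ∧
      u * aEl C = aEl C * u} => (z : ↥(twistedG2 K e))) h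
    simp only [hf] at h'
    exact Subtype.ext (rEl_inj C h')
  have hsurj : Function.Surjective f := by
    rintro ⟨u, hu, ho, hc⟩
    have hcomm' : (C.hh (-1) (-1) : GL chevG2.Idx K) * (u : GL chevG2.Idx K) =
        (u : GL chevG2.Idx K) * (C.hh (-1) (-1) : GL chevG2.Idx K) :=
      (congrArg (fun z : ↥(twistedG2 K e) => (z : GL chevG2.Idx K)) hc).symm
    obtain ⟨x, hx⟩ := Cfsg.Agent.H19.R2.ufix C (Cfsg.Agent.H19.R2.conjR C) (u : GL chevG2.Idx K)
      ⟨(mem_U1sub u).mp hu, u.2⟩ hcomm'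
    have hur : u = rEl C x := Subtype.ext hx
    have hx0 : ¬ (x = 0) := by
      rw [hur] at ho
      exact (orderOf_rEl C x).mp ho
    refine ⟨⟨x, hx0⟩, ?_⟩
    apply Subtype.ext
    rw [hf]
    exact hur.symm
  rw [← Nat.card_congr (Equiv.ofBijective f ⟨hinj, hsurj⟩), Nat.card_eq_fintype_card,
    Fintype.card_subtype_compl, Fintype.card_subtype_eq, hK]

include C in
/-- the normaliser of `U¹` is `B¹` -/
theorem normalizer_U1 [Fintype K] {m : ℕ} (hK : Fintype.card K = 3 ^ (2 * m + 1))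
    (hcan : CanonG2 K) (hW : WeylG2 K) :
    Subgroup.normalizer ((U1sub K e : Subgroup ↥(twistedG2 K e)) : Set ↥(twistedG2 K e)) =
      B1sub K e := by
  ext n
  constructor
  · intro hn
    have hu0 : rEl C 1 ∈ U1sub K e := (mem_U1sub _).mpr (rEl_mem_U C 1)
    have hu0ne : rEl C 1 ≠ 1 := by
      intro h
      exact C.RP010_ne_one (congrArg (fun z : ↥(twistedG2 K e) => (z : GL chevG2.Idx K)) h)
    have h1 : n * rEl C 1 * n⁻¹ ∈ U1sub K e := (Subgroup.mem_normalizer_iff.mp hn _).mp hu0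
    have h1ne : n * rEl C 1 * n⁻¹ ≠ 1 := by
      intro h
      apply hu0ne
      calc rEl C 1 = n⁻¹ * (n * rEl C 1 * n⁻¹) * n := by group
        _ = 1 := by rw [h]; group
    have hfix : (n * rEl C 1 * n⁻¹) • (n • (QuotientGroup.mk 1 : ↥(twistedG2 K e) ⧸ B1sub K e)) =
        n • (QuotientGroup.mk 1 : ↥(twistedG2 K e) ⧸ B1sub K e) := by
      rw [← mul_smul]
      have e1 : n * rEl C 1 * n⁻¹ * n = n * rEl C 1 := by group
      rw [e1, mul_smul, B_fix_one (rEl C 1) (U_le_B (rEl_mem_U C 1))]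
    have h2 := omU C hK hcan hW _ h1 h1ne _ hfix
    have h3 : (QuotientGroup.mk (n * 1) : ↥(twistedG2 K e) ⧸ B1sub K e) = QuotientGroup.mk 1 := h2
    rw [mul_one] at h3
    have h4 := QuotientGroup.eq.mp h3
    rw [mul_one] at h4
    exact inv_mem_iff.mp h4
  · intro hn
    rw [Subgroup.mem_normalizer_iff]
    intro u
    exact conj_mem_U1 C n u hn

include C in
/-- (N3), general form -/
theorem card_sylow3 [Fintype K] {m : ℕ} (hK : Fintype.card K = 3 ^ (2 * m + 1))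
    (hcan : CanonG2 K) (hW : WeylG2 K) :
    Nat.card (Sylow 3 ↥(twistedG2 K e)) = (3 ^ (2 * m + 1)) ^ 3 + 1 := by
  have : Fact (Nat.Prime 3) := ⟨Nat.prime_three⟩
  obtain ⟨P₀, hP₀⟩ := C.exists_sylow_eq_U1 hK hcan hW
  have hN : Subgroup.normalizer ((P₀ : Set ↥(twistedG2 K e))) = B1sub K e := by
    rw [← normalizer_U1 C hK hcan hW, ← hP₀]
    rfl
  rw [Sylow.card_eq_index_normalizer P₀, hN, Subgroup.index_eq_card]
  exact card_quot C hK hcan hW

end

end Cfsg.Agent.H22.S7
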