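import Cfsg.Agent.H45.S7Defs
import Cfsg.Agent.H22.S7Core
/-!
Team project S2357 (helper45), Ree-library piece UA (helper22): for an involution `a'` of `B¹`,
exactly `q - 1` elements of order 3 of `U¹` commute with `a'`.
-/
set_option autoImplicit false
set_option synthInstance.maxHeartbeats 400000
open Cfsg Cfsg.Lie

namespace Cfsg.Agent.H22.S7

open Cfsg.Agent.H22 Cfsg.Agent.H22.GEx Cfsg.Agent.H22.Ree Cfsg.Agent.H7.RT Cfsg.Agent.H45.S8
  Cfsg.Agent.H45.S7

/-- (UA) -/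
theorem uA {K : Type*} [Field K] [Fintype K] [CharP K 3] {m : ℕ} (C : Ctx K (3 ^ m))
    (hK : Fintype.card K = 3 ^ (2 * m + 1)) (hcan : CanonG2 K) : StUA K m := by
  intro a' ha' h1 h2
  unfold qq
  exact card_UA C hK hcan a' ha' h1 h2

example {K : Type*} [Field K] [Fintype K] [CharP K 3] {m : ℕ} (C : Ctx K (3 ^ m))
    (hK : Fintype.card K = 3 ^ (2 * m + 1)) (hcan : CanonG2 K) :
    Cfsg.Agent.H45.S7.StUA K m := uA C hK hcan

end Cfsg.Agent.H22.S7
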