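import Cfsg.Agent.H46.SDGlue
import Cfsg.Agent.H46.OutE8
import Cfsg.Agent.H56.StbCoordE8
import Cfsg.Agent.H46.OSChain2

/-!
# S2156 for type `E₈` (helper22): the table facts for helper46's generic glue `sdType_of`

Every automorphism of `E₈(F)`, `F` a finite field, is inner ∘ diagonal ∘ graph ∘ field.
-/

set_option autoImplicit false
set_option maxRecDepth 100000

namespace Cfsg.Agent.H22.Sd

open Cfsg Cfsg.Lie Cfsg.Agent.H23 Cfsg.Agent.H23.Stb Cfsg.Agent.H23.StbD Cfsg.Agent.H46.OutE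

universe u

set_option synthInstance.maxSize 4096 in
set_option synthInstance.maxHeartbeats 400000 in
theorem e8_T1 : ∀ i < chevE8.rank, ∀ j < chevE8.rank, i ≠ j →
    chevE8.commTerms (chevE8.neg (chevE8.simple i)) (chevE8.simple j) = [] := by
  decide +kernel

set_option synthInstance.maxSize 4096 in
set_option synthInstance.maxHeartbeats 400000 in
theorem e8_T2 : ∀ i < chevE8.rank, ∀ j < chevE8.rank, i ≠ j →
    zR chevE8 ctblE8 (chevE8.simple j) (chevE8.simple i) = 0 →
    chevE8.commTerms (chevE8.simple i) (chevE8.simple j) = [] := by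
  decide +kernel

set_option synthInstance.maxSize 4096 in
set_option synthInstance.maxHeartbeats 400000 in
theorem e8_T3 : ∀ i < chevE8.rank, ∀ j < chevE8.rank, i ≠ j →
    zR chevE8 ctblE8 (chevE8.simple j) (chevE8.simple i) ≠ 0 →
    chevE8.reflectRoot i (chevE8.simple j) ≠ chevE8.simple j := by
  decide +kernel

theorem e8_T4 : ∀ i < chevE8.rank, chevE8.reflectRoot i (chevE8.simple i) = chevE8.neg (chevE8.simple i) := by
  decide +kernel

theorem e8_cz : ∀ i < chevE8.rank, ∀ j < chevE8.rank,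
    chevE8.cartan i (chevE8.simple j) = zR chevE8 ctblE8 (chevE8.simple i) (chevE8.simple j) := by
  decide +kernel

theorem e8_short : ∀ i < chevE8.rank, chevE8.isLong (chevE8.simple i) = false := by
  decide +kernel

set_option synthInstance.maxSize 4096 in
set_option synthInstance.maxHeartbeats 400000 in
theorem e8_Am1 : ∀ i < chevE8.rank, ∀ j < chevE8.rank, i ≠ j →
    zR chevE8 ctblE8 (chevE8.simple j) (chevE8.simple i) ≠ 0 →
    zR chevE8 ctblE8 (chevE8.simple j) (chevE8.simple i) = -1 := by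
  decide +kernel

theorem e8_diag : ∀ i < chevE8.rank, zR chevE8 ctblE8 (chevE8.simple i) (chevE8.simple i) ≠ -1 := by
  decide +kernel

theorem e8_hA : ∀ i < chevE8.rank, ∀ j < chevE8.rank, i ≠ j →
    zR chevE8 ctblE8 (chevE8.simple j) (chevE8.simple i) ≠ 0 →
    zR chevE8 ctblE8 (chevE8.simple j) (chevE8.simple i) =
      if chevE8.isLong (chevE8.simple i) && !chevE8.isLong (chevE8.simple j) then -((2 : ℕ) : ℤ) else -1 := by
  intro i hi j hj hij hz
  rw [e8_short i hi, e8_short j hj]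
  exact e8_Am1 i hi j hj hij hz

theorem e8_conn : ∀ P : ℕ → Prop, P 0 → P 0 →
    (∀ i < chevE8.rank, ∀ j < chevE8.rank, i ≠ j →
      zR chevE8 ctblE8 (chevE8.simple j) (chevE8.simple i) ≠ 0 →
      chevE8.isLong (chevE8.simple i) = chevE8.isLong (chevE8.simple j) → P i → P j) →
    ∀ i < chevE8.rank, P i := by
  intro P h0 _ hstep
  apply e8_conn2 P h0
  intro i hi j hj hz hPi
  have hij : i ≠ j := by
    rintro rfl
    exact e8_diag i hi hz
  exact hstep i hi j hj hij (by rw [hz]; decide) (by rw [e8_short i hi, e8_short j hj]) hPi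

theorem e8_pilen : ∀ π : ℕ → ℕ, (∀ i < chevE8.rank, π i < chevE8.rank) →
    (∀ i < chevE8.rank, ∀ j < chevE8.rank, π i = π j → i = j) →
    (∀ i < chevE8.rank, ∀ j < chevE8.rank, i ≠ j →
      (zR chevE8 ctblE8 (chevE8.simple (π j)) (chevE8.simple (π i)) ≠ 0 ↔
        zR chevE8 ctblE8 (chevE8.simple j) (chevE8.simple i) ≠ 0)) →
    ((∀ i < chevE8.rank, chevE8.isLong (chevE8.simple (π i)) = chevE8.isLong (chevE8.simple i)) ∨
      (∀ i < chevE8.rank, chevE8.isLong (chevE8.simple (π i)) = !chevE8.isLong (chevE8.simple i))) := by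
  intro π hlt _ _
  exact Or.inl (fun i hi => by rw [e8_short (π i) (hlt i hi), e8_short i hi])

theorem e8_syl (F : Type u) [Field F] [Finite F] (p : ℕ) [Fact p.Prime] [CharP F p] :
    ∃ P : Sylow p ↥(chevE8.group F),
      (P : Subgroup ↥(chevE8.group F)) = (chevE8.posUnipotent F).subgroupOf (chevE8.group F) := by
  haveI := Fintype.ofFinite F
  exact exists_sylow_posUnipotent p chevE8 (by simp)

/-- **S2156 for `E₈`**: every automorphism of `E₈(F)` is inner ∘ diagonal ∘ graph ∘ field. -/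
theorem sdType_E8 : StType.{u} chevE8 :=
  Cfsg.Agent.H46.SD.sdType_of chevE8 (zR chevE8 ctblE8) eta8 rTE8 w0E8 (fun F _ => e8_packS F)
    (fun F _ _ p _ _ => e8_syl F p) Cfsg.Agent.H56.StbG.mCE8 Cfsg.Agent.H56.StbG.e8_coord (fun i => i)
    (fun _ hi => hi) (fun _ _ => rfl) e8_w0 e8_T1 e8_T2 e8_T3 e8_T4 2 0 0 e8_cz (Or.inl rfl) e8_hA
    (by decide) (by decide) e8_conn (Or.inr ⟨e8_short, rfl⟩)
    ⟨0, by decide, 2, by decide, by decide, e8_edges.1⟩ e8_pilen Cfsg.Agent.H46.OS.chain_E8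

example : Cfsg.Agent.H23.StbD.StType.{u} Cfsg.Lie.chevE8 := sdType_E8.{u}

end Cfsg.Agent.H22.Sd
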