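import Cfsg.Agent.H22.TF4Core2
/-!
The normal core of `B ∩ ²F₄` in `²F₄` is trivial: final assembly (helper22).
-/
set_option autoImplicit false
open Cfsg Cfsg.Lie

namespace Cfsg.Agent.H22.TF4

open Cfsg.Agent.H22 Cfsg.Agent.H22.GEx

theorem core_trivial {K : Type*} [Field K] [Fintype K] {m : ℕ}
    (hK : Fintype.card K = 2 ^ (2 * m + 1))
    (Θ : chevF4.SteinbergGroup K →* GL chevF4.Idx K)
    (hx : ∀ (r : ℕ) (t : K), r < chevF4.nroots →
      ((Θ (chevF4.stGen K r t) : GL chevF4.Idx K) : Matrix chevF4.Idx chevF4.Idx K) =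
        chevF4.x K r t)
    (hU : ∀ g : GL chevF4.Idx K, g ∈ chevF4.posUnipotent K →
      ∃! t : ℕ → K, (∀ r, ¬ chevF4.IsPosRoot r → t r = 0) ∧
        (g : Matrix chevF4.Idx chevF4.Idx K) =
          chevF4.wordMat K (chevF4.posRoots.map fun r => (r, t r))) :
    ((chevF4.borelSubgroup K ⊓ twistedF4 K (2 ^ m)).subgroupOf
      (twistedF4 K (2 ^ m))).normalCore = ⊥ := by
  have hc2 : CharP K 2 := charP_two_of_card (n := 2 * m) hK
  have h2 : (2 : K) = 0 := CharTwo.two_eq_zero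
  have hD : chevF4 ∈ [chevG2, chevB2, chevD4, chevF4, chevE6, chevE7, chevE8] := by simp
  obtain ⟨τ, τ_eq⟩ : ∃ τ : K →+* K, ∀ c : K, τ c = c ^ 2 ^ m :=
    ⟨iterateFrobenius K 2 m, fun c => iterateFrobenius_def 2 m c⟩
  have hτ : ∀ c : K, τ (τ c) ^ 2 = c := by
    intro c
    rw [τ_eq, τ_eq, ← pow_mul, ← pow_mul]
    have h1 : 2 ^ m * (2 ^ m * 2) = Fintype.card K := by rw [hK]; ring
    rw [h1, FiniteField.pow_card]
  -- the generators
  have hPp : ∀ t : K, Pp K Θ τ t ∈ twistedF4 K (2 ^ m) := fun t =>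
    Subgroup.subset_closure ⟨_, Or.inl ⟨t, Or.inl rfl⟩, Pp_val K Θ hx τ (2 ^ m) τ_eq t⟩
  have hPm : ∀ t : K, Pm K Θ τ t ∈ twistedF4 K (2 ^ m) := fun t =>
    Subgroup.subset_closure ⟨_, Or.inl ⟨t, Or.inr rfl⟩, Pm_val K Θ hx τ (2 ^ m) τ_eq t⟩
  have hBp : ∀ t u : K, (sysP K Θ).W τ t u ∈ twistedF4 K (2 ^ m) := fun t u =>
    Subgroup.subset_closure ⟨_, Or.inr ⟨t, u, Or.inl rfl⟩, Bp_val K Θ hx τ (2 ^ m) τ_eq t u⟩
  have hBm : ∀ t u : K, (sysM K Θ).W τ t u ∈ twistedF4 K (2 ^ m) := fun t u =>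
    Subgroup.subset_closure ⟨_, Or.inr ⟨t, u, Or.inr rfl⟩, Bm_val K Θ hx τ (2 ^ m) τ_eq t u⟩
  -- the element `n₀`
  obtain ⟨nP, hnP⟩ : ∃ nP : GL chevF4.Idx K,
      nP = Θ (nEl chevF4 K 33 1 * nEl chevF4 K 24 1) := ⟨_, rfl⟩
  obtain ⟨nB1, hnB1⟩ : ∃ nB1 : GL chevF4.Idx K,
      nB1 = Θ (nEl chevF4 K 25 1 * nEl chevF4 K 30 1) := ⟨_, rfl⟩
  have hnPG : nP ∈ twistedF4 K (2 ^ m) := by
    have k1 := nn_eq K τ 1
    rw [map_one] at k1
    rw [hnP, k1]
    simp only [map_mul, ← Pp_eq, ← Pm_eq]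
    exact mul_mem (mul_mem (hPp _) (hPm _)) (hPp _)
  have hnBG : nB1 ∈ twistedF4 K (2 ^ m) := by
    have h1 := nB_eq K Θ hx τ hτ 1 one_ne_zero
    simp only [map_one, one_pow, inv_one, mul_one] at h1
    rw [hnB1, ← h1]
    exact nB_mem K Θ τ _ hBp hBm 1
  have hnel : ∀ r : ℕ, r < chevF4.nroots → chevF4.neg r < chevF4.nroots →
      Θ (nEl chevF4 K r 1) ∈ chevF4.monomialSubgroup K := fun r hr hr' =>
    Subgroup.mem_sup_right (Subgroup.subset_closure ⟨r, hr, nElF_val K Θ hx r hr hr' 1⟩)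
  have hnPN : nP ∈ chevF4.monomialSubgroup K := by
    rw [hnP, map_mul]
    exact mul_mem (hnel 33 (by decide) (by decide)) (hnel 24 (by decide) (by decide))
  have hnBN : nB1 ∈ chevF4.monomialSubgroup K := by
    rw [hnB1, map_mul]
    exact mul_mem (hnel 25 (by decide) (by decide)) (hnel 30 (by decide) (by decide))
  obtain ⟨n0, hn0⟩ : ∃ n0 : GL chevF4.Idx K, n0 = (nP * nB1) ^ 4 := ⟨_, rfl⟩
  have hn0G : n0 ∈ twistedF4 K (2 ^ m) := by
    rw [hn0]; exact pow_mem (mul_mem hnPG hnBG) 4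
  have hn0N : n0 ∈ chevF4.monomialSubgroup K := by
    rw [hn0]; exact pow_mem (mul_mem hnPN hnBN) 4
  have mn0 : (n0 : Matrix chevF4.Idx chevF4.Idx K) =
      chevF4.wordMat K (L12 K ++ L12 K ++ L12 K ++ L12 K) := by
    have m1 : ((nP * nB1 : GL chevF4.Idx K) : Matrix chevF4.Idx chevF4.Idx K) =
        chevF4.wordMat K (L12 K) := by
      rw [hnP, hnB1, ← map_mul]
      have e : nEl chevF4 K 33 1 * nEl chevF4 K 24 1 *
          (nEl chevF4 K 25 1 * nEl chevF4 K 30 1) =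
          ((L12 K).map fun q => chevF4.stGen K q.1 q.2).prod := by
        have h14 : chevF4.neg 33 = 14 := by decide
        have h23 : chevF4.neg 24 = 23 := by decide
        have h22 : chevF4.neg 25 = 22 := by decide
        have h17 : chevF4.neg 30 = 17 := by decide
        rw [nEl_eq, nEl_eq, nEl_eq, nEl_eq, h14, h23, h22, h17, CharTwo.neg_eq, inv_one]
        simp only [L12, List.map_cons, List.map_nil, List.prod_cons, List.prod_nil, mul_one,
          mul_assoc]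
      rw [e]
      apply Theta_word K Θ hx
      intro q hq
      simp only [L12, List.mem_cons, List.mem_nil_iff, or_false] at hq
      rcases hq with rfl | rfl | rfl | rfl | rfl | rfl | rfl | rfl | rfl | rfl | rfl | rfl <;>
        (dsimp only; decide)
    rw [hn0, pow_succ, pow_succ, pow_succ, pow_one, Units.val_mul, Units.val_mul, Units.val_mul,
      m1, wordMat_append, wordMat_append, wordMat_append]
  have hconj : ∀ r : ℕ, r < 24 → ∀ t : K,
      n0 * xf K Θ (24 + r) t * n0⁻¹ = xf K Θ (23 - r) t := by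
    intro r hr t
    by_cases ht : t = 0
    · rw [ht, xf_zero, xf_zero, mul_one, mul_inv_cancel]
    · have e : n0 * xf K Θ (24 + r) t = xf K Θ (23 - r) t * n0 := by
        apply Units.ext
        have h48 : chevF4.nroots = 48 := by decide
        rw [Units.val_mul, Units.val_mul, mn0, xf_val K Θ hx _ (by omega),
          xf_val K Θ hx _ (by omega)]
        exact n0W_conj r hr t ht
      rw [e, mul_inv_cancel_right]
  have hB : ∀ b ∈ chevF4.borelSubgroup K,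
      n0 * b * n0⁻¹ ∈ chevF4.negUnipotent K ⊔ chevF4.diagonalSubgroup K := by
    have hle : chevF4.borelSubgroup K ≤
        (chevF4.negUnipotent K ⊔ chevF4.diagonalSubgroup K).comap
          (MulAut.conj n0).toMonoidHom := by
      apply sup_le
      · unfold ChevalleyDatum.posUnipotent
        rw [Subgroup.closure_le]
        rintro g ⟨r, t, hr, hg⟩
        have h48 : r < 48 := hr.1
        have h24 := pos_ge r h48 hr
        have hg' : g = xf K Θ r t := Units.ext (by rw [hg, xf_val K Θ hx r hr.1])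
        have hr' : r = 24 + (r - 24) := by omega
        show n0 * g * n0⁻¹ ∈ chevF4.negUnipotent K ⊔ chevF4.diagonalSubgroup K
        rw [hg', hr', hconj (r - 24) (by omega) t]
        exact Subgroup.mem_sup_left (Subgroup.subset_closure
          ⟨23 - (r - 24), t, neg_of_lt (r - 24) (by omega),
            xf_val K Θ hx _ (neg_of_lt (r - 24) (by omega)).1 t⟩)
      · intro h hh
        show n0 * h * n0⁻¹ ∈ chevF4.negUnipotent K ⊔ chevF4.diagonalSubgroup K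
        exact Subgroup.mem_sup_right ((monomial_conj_mem hD n0 hn0N h hh).1)
    intro b hb
    exact hle hb
  -- the main argument
  rw [Subgroup.eq_bot_iff_forall]
  intro c hc
  have hc' : ∀ b : ↥(twistedF4 K (2 ^ m)), b * c * b⁻¹ ∈
      (chevF4.borelSubgroup K ⊓ twistedF4 K (2 ^ m)).subgroupOf (twistedF4 K (2 ^ m)) := hc
  obtain ⟨c1, hc1⟩ : ∃ c1 : GL chevF4.Idx K, c1 = (c : GL chevF4.Idx K) := ⟨_, rfl⟩
  have hcB : ∀ g : GL chevF4.Idx K, g ∈ twistedF4 K (2 ^ m) →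
      g * c1 * g⁻¹ ∈ chevF4.borelSubgroup K := by
    intro g hg
    have h := hc' ⟨g, hg⟩
    rw [Subgroup.mem_subgroupOf] at h
    rw [hc1]
    exact h.1
  have toH : ∀ g : GL chevF4.Idx K, g ∈ twistedF4 K (2 ^ m) →
      g * c1 * g⁻¹ ∈ chevF4.diagonalSubgroup K := by
    intro g hg
    have h1 : g * c1 * g⁻¹ ∈ chevF4.borelSubgroup K := hcB g hg
    have h2 : n0⁻¹ * g * c1 * (n0⁻¹ * g)⁻¹ ∈ chevF4.borelSubgroup K :=
      hcB (n0⁻¹ * g) (mul_mem (inv_mem hn0G) hg)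
    have h3 := hB _ h2
    have e : n0 * (n0⁻¹ * g * c1 * (n0⁻¹ * g)⁻¹) * n0⁻¹ = g * c1 * g⁻¹ := by group
    rw [e] at h3
    have h4 : g * c1 * g⁻¹ ∈ chevF4.borelSubgroup K ⊓
        (chevF4.negUnipotent K ⊔ chevF4.diagonalSubgroup K) := ⟨h1, h3⟩
    rw [borel_inf_negdiag hD] at h4
    exact h4
  have hcH : c1 ∈ chevF4.diagonalSubgroup K := by
    have h := toH 1 (one_mem _)
    rwa [one_mul, inv_one, mul_one] at h
  have hcomm : ∀ u : GL chevF4.Idx K, u ∈ chevF4.posUnipotent K → u ∈ twistedF4 K (2 ^ m) →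
      c1 * u * c1⁻¹ = u := by
    intro u huU huG
    have h1 := toH u huG
    have h2' : u * c1 * u⁻¹ * c1⁻¹ ∈ chevF4.diagonalSubgroup K := mul_mem h1 (inv_mem hcH)
    have h3 : c1 * u⁻¹ * c1⁻¹ ∈ chevF4.posUnipotent K :=
      ((Subgroup.mem_normalizer_iff.mp (diag_le_normalizer hD hcH)) u⁻¹).mp (inv_mem huU)
    have h4 : u * c1 * u⁻¹ * c1⁻¹ ∈ chevF4.posUnipotent K := by
      have e : u * c1 * u⁻¹ * c1⁻¹ = u * (c1 * u⁻¹ * c1⁻¹) := by group
      rw [e]; exact mul_mem huU h3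
    have h5 : u * c1 * u⁻¹ * c1⁻¹ ∈ chevF4.posUnipotent K ⊓ chevF4.diagonalSubgroup K :=
      ⟨h4, h2'⟩
    rw [pos_inf_diag hD, Subgroup.mem_bot] at h5
    calc c1 * u * c1⁻¹ = (u * c1 * u⁻¹ * c1⁻¹)⁻¹ * u := by group
      _ = u := by rw [h5, inv_one, one_mul]
  -- the torus form of `c`
  obtain ⟨cc, hcc, hcm⟩ := exists_torusDiag (D := chevF4) hD c1 hcH
  rw [torusDiagF_cc] at hcm
  have hcm' : (c1 : Matrix chevF4.Idx chevF4.Idx K) = dgF (cc 0) (cc 1) (cc 2) (cc 3) := hcm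
  have hcj : ∀ (s : ℕ), s < chevF4.nroots → ∀ t : K,
      c1 * xf K Θ s t * c1⁻¹ = xf K Θ s (chi4 (cc 0) (cc 1) (cc 2) (cc 3) s * t) :=
    fun s hs t => dg_conj K Θ hx c1 (cc 0) (cc 1) (cc 2) (cc 3) (hcc 0) (hcc 1) (hcc 2) (hcc 3)
      hcm' s hs t
  have em : ∀ x y : GL chevF4.Idx K, c1 * (x * y) * c1⁻¹ = (c1 * x * c1⁻¹) * (c1 * y * c1⁻¹) :=
    fun x y => by group
  -- the pair word `Pp(1)`
  have eP : chi4 (cc 0) (cc 1) (cc 2) (cc 3) 24 = 1 ∧ chi4 (cc 0) (cc 1) (cc 2) (cc 3) 33 = 1 := by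
    have hu : Pp K Θ τ 1 = xf K Θ 24 1 * xf K Θ 33 1 := by
      unfold Pp
      rw [map_one]
      exact (xf_comm K Θ 33 24 cokF_33_24 1 1).symm
    have h1 := hcomm (Pp K Θ τ 1) (by
      rw [hu]
      exact mul_mem (xf_mem_U K Θ hx 24 (by decide) 1) (xf_mem_U K Θ hx 33 (by decide) 1))
      (hPp 1)
    rw [hu, em, hcj 24 (by decide), hcj 33 (by decide)] at h1
    obtain ⟨a, b⟩ := inj_P K Θ hx hU _ _ _ _ h1
    rw [mul_one] at a b
    exact ⟨a, b⟩
  -- the class word `W(1,0)`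
  have eB : chi4 (cc 0) (cc 1) (cc 2) (cc 3) 25 = 1 ∧ chi4 (cc 0) (cc 1) (cc 2) (cc 3) 27 = 1 := by
    have hu : (sysP K Θ).W τ 1 0 = xf K Θ 27 1 * xf K Θ 25 1 * (xf K Θ 28 1 * xf K Θ 30 0) := by
      show xf K Θ 27 (τ 1) * xf K Θ 25 1 * (xf K Θ 28 (τ 1 * 1 + 0) * xf K Θ 30 (τ 0 ^ 2)) = _
      simp only [map_one, map_zero, mul_one, add_zero, ne_eq, OfNat.ofNat_ne_zero,
        not_false_eq_true, zero_pow]
    have hsw : ∀ a b c d : K, xf K Θ 27 a * xf K Θ 25 b * (xf K Θ 28 c * xf K Θ 30 d) =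
        xf K Θ 25 b * xf K Θ 27 a * (xf K Θ 28 (a * b + c) * xf K Θ 30 (a ^ 2 * b + d)) :=
      fun a b c d => (sysP K Θ).W_swap h2 a b c d
    have huU : (sysP K Θ).W τ 1 0 ∈ chevF4.posUnipotent K := by
      rw [hu]
      exact mul_mem (mul_mem (xf_mem_U K Θ hx 27 (by decide) 1) (xf_mem_U K Θ hx 25 (by decide) 1))
        (mul_mem (xf_mem_U K Θ hx 28 (by decide) 1) (xf_mem_U K Θ hx 30 (by decide) 0))
    have h1 := hcomm _ huU (hBp 1 0)
    rw [hu, em, em, em, hcj 27 (by decide), hcj 25 (by decide), hcj 28 (by decide),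
      hcj 30 (by decide), hsw, hsw] at h1
    obtain ⟨a, b⟩ := inj_B K Θ hx hU _ _ _ _ _ _ _ _ h1
    rw [mul_one] at a b
    exact ⟨a, b⟩
  have hone : dgF (cc 0) (cc 1) (cc 2) (cc 3) = 1 :=
    eq_one_of_chi4 _ _ _ _ (hcc 0) (hcc 1) (hcc 2) (hcc 3) eP.2 eB.2 eB.1 eP.1
  have hc1one : c1 = 1 := Units.ext (by rw [hcm', hone]; rfl)
  apply Subtype.ext
  rw [← hc1, hc1one]
  rfl

end Cfsg.Agent.H22.TF4
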