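import Cfsg.Agent.H22.TF4Gb
/-!
Two-generation of `²F₄(2^(2m+1))`, `m ≥ 1`: final assembly (helper22).
-/
set_option autoImplicit false
open Cfsg Cfsg.Lie

namespace Cfsg.Agent.H22.TF4

open Cfsg.Agent.H22 Cfsg.Agent.H22.GEx Cfsg.Agent.H23

/-- diagonal elements commute -/
theorem diag_comm4 {D : ChevalleyDatum} {F : Type*} [Field F] {z : ℕ → ℕ → ℤ} (hS : Sem D F z)
    (hT : Tab D) (a b : GL D.Idx F) (ha : a ∈ D.diagonalSubgroup F)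
    (hb : b ∈ D.diagonalSubgroup F) : a * b = b * a := by
  obtain ⟨χ, -, -, -, e⟩ := diagonal_le_torus hS hT ha
  obtain ⟨χ', -, -, -, e'⟩ := diagonal_le_torus hS hT hb
  apply Units.ext
  rw [Units.val_mul, Units.val_mul, e, e', Matrix.diagonal_mul_diagonal,
    Matrix.diagonal_mul_diagonal]
  congr 1
  funext k
  exact mul_comm _ _

namespace Ctx4

variable {K : Type*} [Field K] [CharP K 2] [Fintype K] {m : ℕ} (C : Ctx4 K (2 ^ m))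

include C

theorem two_gen (hK : Fintype.card K = 2 ^ (2 * m + 1)) (hm : 1 ≤ m) :
    ∃ a b : ↥(twistedF4 K (2 ^ m)),
      Subgroup.closure ({a, b} : Set ↥(twistedF4 K (2 ^ m))) = ⊤ := by
  have h2 : (2 : K) = 0 := CharTwo.two_eq_zero
  have hτ := C.hτ
  have τ_eq := C.τ_eq
  obtain ⟨ζ, hζ0, hζ1, hζ3, hgen⟩ := exists_gen hK hm
  -- parameters
  obtain ⟨z, hz⟩ : ∃ z : K, z = ζ ^ (4 * (2 ^ m) ^ 3 + 3 * (2 ^ m) ^ 2) := ⟨_, rfl⟩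
  have hz0 : z ≠ 0 := by rw [hz]; exact pow_ne_zero _ hζ0
  obtain ⟨a, ha⟩ : ∃ a : K, a = C.τ z := ⟨_, rfl⟩
  have ha0 : a ≠ 0 := by rw [ha]; exact (map_ne_zero C.τ).mpr hz0
  have hkey : z ^ 6 = ζ * a ^ 8 := by rw [ha, τ_eq, hz]; exact key_arith hK ζ
  obtain ⟨s, hs⟩ : ∃ s : K, s = z ^ 6 * (a ^ 4)⁻¹ := ⟨_, rfl⟩
  obtain ⟨u, hu⟩ : ∃ u : K, u = z ^ 3 := ⟨_, rfl⟩
  have hs0 : s ≠ 0 := by
    rw [hs]; exact mul_ne_zero (pow_ne_zero _ hz0) (inv_ne_zero (pow_ne_zero _ ha0))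
  have hu0 : u ≠ 0 := by rw [hu]; exact pow_ne_zero _ hz0
  obtain ⟨v, hv⟩ : ∃ v : K, v = C.τ u ^ 2 := ⟨_, rfl⟩
  have hva : v = a ^ 6 := by rw [hv, hu, map_pow, ← ha]; ring
  have hv0 : v ≠ 0 := by rw [hva]; exact pow_ne_zero _ ha0
  have hτv : C.τ v = u := by rw [hv, map_pow, hτ]
  have hτs0 : C.τ s ≠ 0 := (map_ne_zero C.τ).mpr hs0
  obtain ⟨c, hc⟩ : ∃ c : K, c = u ^ 2 * v⁻¹ := ⟨_, rfl⟩
  have hc0 : c ≠ 0 := by rw [hc]; exact mul_ne_zero (pow_ne_zero _ hu0) (inv_ne_zero hv0)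
  have hcd : c * v = u ^ 2 := by rw [hc]; field_simp
  have hτc2 : C.τ (c ^ 2) = v ^ 2 * (u ^ 2)⁻¹ := by
    rw [hc, map_pow, map_mul, map_pow, map_inv₀, hτv, ← hv]; field_simp
  have hτu2 : C.τ (u ^ 2) = v := by rw [map_pow, ← hv]
  -- the torus elements
  obtain ⟨g1, hg1⟩ : ∃ g1 : GL chevF4.Idx K, g1 = hf K C.Θ (C.τ s) s := ⟨_, rfl⟩
  obtain ⟨g2, hg2⟩ : ∃ g2 : GL chevF4.Idx K, g2 = hb K C.Θ c v := ⟨_, rfl⟩
  have hg1m : g1 ∈ twistedF4 K (2 ^ m) := by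
    rw [hg1]
    unfold hf
    rw [torus_eq K C.τ s]
    simp only [map_mul, ← Pp_eq, ← Pm_eq]
    exact mul_mem (mul_mem (mul_mem (C.Pp_mem _) (C.Pm_mem _)) (C.Pp_mem _))
      (mul_mem (mul_mem (C.Pp_mem _) (C.Pm_mem _)) (C.Pp_mem _))
  have hg2m : g2 ∈ twistedF4 K (2 ^ m) := by
    rw [hg2, hc, hv]
    exact TB_mem K C.Θ C.hxΘ C.τ hτ _ C.Bp_mem C.Bm_mem u hu0
  have hHel : ∀ (r : ℕ), r < chevF4.nroots → chevF4.neg r < chevF4.nroots → ∀ t : K, t ≠ 0 →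
      C.Θ (hEl chevF4 K r t) ∈ chevF4.diagonalSubgroup K := fun r hr hr' t ht =>
    Subgroup.subset_closure ⟨r, t, hr, ht, hElF_val K C.Θ C.hxΘ r hr hr' t⟩
  have hg1d : g1 ∈ chevF4.diagonalSubgroup K := by
    rw [hg1]; unfold hf; rw [map_mul]
    exact mul_mem (hHel 33 (by decide) (by decide) _ hτs0) (hHel 24 (by decide) (by decide) _ hs0)
  have hg2d : g2 ∈ chevF4.diagonalSubgroup K := by
    rw [hg2]; unfold hb; rw [map_mul]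
    exact mul_mem (hHel 25 (by decide) (by decide) _ hc0) (hHel 30 (by decide) (by decide) _ hv0)
  have hc1 : ∀ r, r < chevF4.nroots → ∀ t : K,
      g1 * xf K C.Θ r t * g1⁻¹ = xf K C.Θ r (chiF (C.τ s) s r * t) := fun r hr t => by
    rw [hg1]; exact hf_conj K C.Θ C.hxΘ (C.τ s) s hτs0 hs0 r hr t
  have hc2 : ∀ r, r < chevF4.nroots → ∀ t : K,
      g2 * xf K C.Θ r t * g2⁻¹ = xf K C.Θ r (chiB c v r * t) := fun r hr t => by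
    rw [hg2]; exact hb_conj K C.Θ C.hxΘ c v hc0 hv0 r hr t
  obtain ⟨⟨v33, v24, v14, v23⟩, ⟨v27, v25, v28, v30⟩, ⟨v20, v22, v19, v17⟩⟩ := chiF_vals (C.τ s) s
  obtain ⟨⟨w27, w25, w28, w30⟩, ⟨w20, w22, w19, w17⟩, ⟨w14, w23, w33, w24⟩⟩ := chiB_vals c v
  -- actions of `g1`
  have A1 : ∀ t x : K, g1 * (sysP K C.Θ).W C.τ t x * g1⁻¹ =
      (sysP K C.Θ).W C.τ (s⁻¹ * t) ((C.τ s)⁻¹ * s⁻¹ * x) := by
    refine conj_W_pos K C.Θ C.τ g1 _ hc1 s⁻¹ ((C.τ s)⁻¹ * s⁻¹) ?_ v25 v28 ?_ ?_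
    · rw [v27, map_inv₀]
    · rw [v30, map_mul, map_inv₀, map_inv₀, mul_pow, inv_pow, inv_pow, hτ s]; ring
    · rw [map_inv₀]
  have A2 : ∀ t x : K, g1 * (sysM K C.Θ).W C.τ t x * g1⁻¹ =
      (sysM K C.Θ).W C.τ (s * t) (C.τ s * s * x) := by
    refine conj_W_neg K C.Θ C.τ g1 _ hc1 s (C.τ s * s) v20 v22 v19 ?_ rfl
    rw [v17, map_mul, mul_pow, hτ s]; ring
  have A3 : ∀ t : K, g1 * Pm K C.Θ C.τ t * g1⁻¹ = Pm K C.Θ C.τ ((s ^ 2)⁻¹ * t) := by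
    refine conj_Pm K C.Θ C.τ g1 _ hc1 (s ^ 2)⁻¹ ?_ v23
    rw [v14, map_inv₀, map_pow]
  have A4 : ∀ t : K, g1 * Pp K C.Θ C.τ t * g1⁻¹ = Pp K C.Θ C.τ (s ^ 2 * t) := by
    refine conj_Pp K C.Θ C.τ g1 _ hc1 (s ^ 2) ?_ v24
    rw [v33, map_pow]
  -- actions of `g2`
  have B1 : ∀ t x : K, g2 * (sysP K C.Θ).W C.τ t x * g2⁻¹ =
      (sysP K C.Θ).W C.τ (c ^ 2 * t) (u ^ 2 * x) := by
    refine conj_W_pos K C.Θ C.τ g2 _ hc2 (c ^ 2) (u ^ 2) ?_ w25 ?_ ?_ ?_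
    · rw [w27, hτc2, hc]; field_simp
    · rw [w28, hcd]
    · rw [w30, hτu2]
    · rw [hτc2, hc]; field_simp
  have B2 : ∀ t x : K, g2 * (sysM K C.Θ).W C.τ t x * g2⁻¹ =
      (sysM K C.Θ).W C.τ ((c ^ 2)⁻¹ * t) ((u ^ 2)⁻¹ * x) := by
    refine conj_W_neg K C.Θ C.τ g2 _ hc2 (c ^ 2)⁻¹ (u ^ 2)⁻¹ ?_ w22 ?_ ?_ ?_
    · rw [w20, map_inv₀, hτc2, hc]; field_simp
    · rw [w19, ← mul_inv, hcd]
    · rw [w17, map_inv₀, hτu2, inv_pow]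
    · rw [map_inv₀, hτc2, hc]; field_simp
  have B3 : ∀ t : K, g2 * Pm K C.Θ C.τ t * g2⁻¹ = Pm K C.Θ C.τ (u ^ 2 * t) := by
    refine conj_Pm K C.Θ C.τ g2 _ hc2 (u ^ 2) ?_ ?_
    · rw [w14, hτu2]
    · rw [w23, hcd]
  have B4 : ∀ t : K, g2 * Pp K C.Θ C.τ t * g2⁻¹ = Pp K C.Θ C.τ ((u ^ 2)⁻¹ * t) := by
    refine conj_Pp K C.Θ C.τ g2 _ hc2 (u ^ 2)⁻¹ ?_ ?_
    · rw [w33, map_inv₀, hτu2]
    · rw [w24, ← mul_inv, hcd]
  -- the first generator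
  obtain ⟨h, hh⟩ : ∃ h : GL chevF4.Idx K, h = g1 * g2 := ⟨_, rfl⟩
  have hhm : h ∈ twistedF4 K (2 ^ m) := by rw [hh]; exact mul_mem hg1m hg2m
  have hhd : h ∈ chevF4.diagonalSubgroup K := by rw [hh]; exact mul_mem hg1d hg2d
  have hcj : ∀ X : GL chevF4.Idx K, h * X * h⁻¹ = g1 * (g2 * X * g2⁻¹) * g1⁻¹ := by
    intro X; rw [hh]; group
  have hlam : s⁻¹ * c ^ 2 = ζ := by
    rw [hc, hs, hu, hva]; field_simp
    linear_combination hkey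
  have hlam' : s * (c ^ 2)⁻¹ = ζ⁻¹ := by rw [← hlam, mul_inv, inv_inv]
  have hmu : (s ^ 2)⁻¹ * u ^ 2 = ζ⁻¹ := by
    rw [hs, hu]; field_simp
    linear_combination (-1 : K) * hkey
  have hmu' : s ^ 2 * (u ^ 2)⁻¹ = ζ := by
    have e := congrArg (fun x : K => x⁻¹) hmu
    simp only [mul_inv, inv_inv] at e
    exact e
  have hW : ∀ t x : K, h * (sysP K C.Θ).W C.τ t x * h⁻¹ =
      (sysP K C.Θ).W C.τ (ζ * t) ((C.τ s)⁻¹ * s⁻¹ * u ^ 2 * x) := by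
    intro t x
    rw [hcj, B1, A1, ← mul_assoc, ← mul_assoc, hlam]
  have hW' : ∀ t x : K, h * (sysM K C.Θ).W C.τ t x * h⁻¹ =
      (sysM K C.Θ).W C.τ (ζ⁻¹ * t) (C.τ s * s * (u ^ 2)⁻¹ * x) := by
    intro t x
    rw [hcj, B2, A2, ← mul_assoc, ← mul_assoc, hlam']
  have hPc : ∀ t : K, h * Pm K C.Θ C.τ t * h⁻¹ = Pm K C.Θ C.τ (ζ⁻¹ * t) := by
    intro t
    rw [hcj, B3, A3, ← mul_assoc, hmu]
  have hPc' : ∀ t : K, h * Pp K C.Θ C.τ t * h⁻¹ = Pp K C.Θ C.τ (ζ * t) := by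
    intro t
    rw [hcj, B4, A4, ← mul_assoc, hmu']
  -- the second generator
  obtain ⟨n, hn⟩ : ∃ n : GL chevF4.Idx K, n = repW K 8 := ⟨_, rfl⟩
  have hnm : n ∈ twistedF4 K (2 ^ m) := by rw [hn]; exact C.rep_mem 8
  obtain ⟨bb, hbb⟩ : ∃ bb : GL chevF4.Idx K,
      bb = (sysP K C.Θ).W C.τ 1 0 * Pm K C.Θ C.τ 1 * n := ⟨_, rfl⟩
  have hbm : bb ∈ twistedF4 K (2 ^ m) := by
    rw [hbb]; exact mul_mem (mul_mem (C.Bp_mem 1 0) (C.Pm_mem 1)) hnm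
  have hP := packF K
  have hhc : h * (n * h * n⁻¹) = (n * h * n⁻¹) * h := by
    have hnN : n ∈ chevF4.monomialSubgroup K := by rw [hn]; exact rep_N 8
    have hh'd : n * h * n⁻¹ ∈ chevF4.diagonalSubgroup K :=
      (Subgroup.mem_normalizer_iff.mp
        (monomial_le_normalizer_diag hP.sem hP.semN hP.tab hP.etaNeg hnN) _).mp hhd
    exact diag_comm4 hP.sem hP.tab _ _ hhd hh'd
  have hn1 : ∀ t x : K, n * (sysM K C.Θ).W C.τ t x * n⁻¹ = (sysP K C.Θ).W C.τ t x := by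
    intro t x; rw [hn]; exact rep8_W K C.Θ C.hxΘ C.τ t x
  have hn2 : ∀ t : K, n * Pp K C.Θ C.τ t * n⁻¹ = Pm K C.Θ C.τ t := by
    intro t; rw [hn]; exact rep8_P K C.Θ C.hxΘ C.τ t
  obtain ⟨M, hMdef⟩ : ∃ M : Subgroup (GL chevF4.Idx K), M = Subgroup.closure {h, bb} := ⟨_, rfl⟩
  have hhM : h ∈ M := by rw [hMdef]; exact Subgroup.subset_closure (Set.mem_insert _ _)
  have hbM : bb ∈ M := by
    rw [hMdef]; exact Subgroup.subset_closure (Set.mem_insert_of_mem _ rfl)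
  obtain ⟨mW, mP, mn⟩ := two_gen_abs (sysP K C.Θ) (sysM K C.Θ) C.τ h2 hτ (Pm K C.Θ C.τ)
    (Pp K C.Θ C.τ) (Pm_add K C.Θ C.τ) (W_Pm_comm K C.Θ C.τ) h n hhc ζ _ _ hζ0 hζ1 hζ3 hgen
    (tau_surj hK C.τ τ_eq) hn1 hn2 hW hW' hPc hPc' M hhM (by rw [← hbb]; exact hbM)
  have mW' : ∀ t x : K, (sysM K C.Θ).W C.τ t x ∈ M := by
    intro t x
    have e : (sysM K C.Θ).W C.τ t x = n⁻¹ * (sysP K C.Θ).W C.τ t x * n := by
      rw [← hn1 t x]; group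
    rw [e]; exact M.mul_mem (M.mul_mem (M.inv_mem mn) (mW t x)) mn
  have mP' : ∀ t : K, Pp K C.Θ C.τ t ∈ M := by
    intro t
    have e : Pp K C.Θ C.τ t = n⁻¹ * Pm K C.Θ C.τ t * n := by
      rw [← hn2 t]; group
    rw [e]; exact M.mul_mem (M.mul_mem (M.inv_mem mn) (mP t)) mn
  have key : twistedF4 K (2 ^ m) ≤ M := by
    intro x hx'
    have hx'' : x ∈ Subgroup.closure {g : GL chevF4.Idx K | ∃ w ∈ f4Words K (2 ^ m),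
        (g : Matrix chevF4.Idx chevF4.Idx K) = chevF4.wordMat K w} := hx'
    refine (Subgroup.closure_le _).mpr ?_ hx''
    rintro y ⟨w, hw, hyw⟩
    rcases hw with ⟨t, hw | hw⟩ | ⟨t, x', hw | hw⟩
    · have hy : y = Pp K C.Θ C.τ t :=
        Units.ext (by rw [hyw, hw, Pp_val K C.Θ C.hxΘ C.τ (2 ^ m) τ_eq t])
      rw [hy]; exact mP' t
    · have hy : y = Pm K C.Θ C.τ t :=
        Units.ext (by rw [hyw, hw, Pm_val K C.Θ C.hxΘ C.τ (2 ^ m) τ_eq t])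
      rw [hy]; exact mP t
    · have hy : y = (sysP K C.Θ).W C.τ t x' :=
        Units.ext (by rw [hyw, hw, Bp_val K C.Θ C.hxΘ C.τ (2 ^ m) τ_eq t x'])
      rw [hy]; exact mW t x'
    · have hy : y = (sysM K C.Θ).W C.τ t x' :=
        Units.ext (by rw [hyw, hw, Bm_val K C.Θ C.hxΘ C.τ (2 ^ m) τ_eq t x'])
      rw [hy]; exact mW' t x'
  refine ⟨⟨h, hhm⟩, ⟨bb, hbm⟩, ?_⟩
  rw [eq_top_iff]
  intro x _
  have hxM : (x : GL chevF4.Idx K) ∈ M := key x.2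
  have hmap : (Subgroup.closure ({⟨h, hhm⟩, ⟨bb, hbm⟩} : Set ↥(twistedF4 K (2 ^ m)))).map
      (twistedF4 K (2 ^ m)).subtype = M := by
    rw [MonoidHom.map_closure, hMdef, Set.image_pair]
    rfl
  rw [← hmap] at hxM
  obtain ⟨y, hy, hyx⟩ := hxM
  have hyx' : y = x := Subtype.ext hyx
  rwa [hyx'] at hy

end Ctx4

end Cfsg.Agent.H22.TF4
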