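import Cfsg.Agent.H22.TF4Perf
/-!
`²F₄(2^(2m+1))` is perfect for `m ≥ 1`: final assembly (helper22).
-/
set_option autoImplicit false
open Cfsg Cfsg.Lie

namespace Cfsg.Agent.H22.TF4

open Cfsg.Agent.H22 Cfsg.Agent.H22.GEx
open scoped commutatorElement

/-- a unit `s ≠ 1` with `s^(2^m+1) ≠ 1` -/
theorem exists_s {K : Type*} [Field K] [Fintype K] {m : ℕ}
    (hK : Fintype.card K = 2 ^ (2 * m + 1)) (hm : 1 ≤ m) :
    ∃ s : K, s ≠ 0 ∧ s ≠ 1 ∧ s ^ 2 ^ m * s ≠ 1 := by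
  obtain ⟨g, hg⟩ := IsCyclic.exists_generator (α := Kˣ)
  have h1 : orderOf g = Nat.card Kˣ := orderOf_eq_card_of_forall_mem_zpowers hg
  rw [Nat.card_units, Nat.card_eq_fintype_card, hK] at h1
  have h2 : 2 ≤ 2 ^ m := by
    calc 2 = 2 ^ 1 := by norm_num
      _ ≤ 2 ^ m := Nat.pow_le_pow_right (by norm_num) hm
  have h3 : 2 ^ (2 * m + 1) = 2 * 2 ^ m * 2 ^ m := by ring
  have h4 : 2 ^ m + 1 < 2 ^ (2 * m + 1) - 1 := by
    have : 4 * 2 ^ m ≤ 2 * 2 ^ m * 2 ^ m := by nlinarith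
    omega
  refine ⟨(g : K), g.ne_zero, ?_, ?_⟩
  · intro h
    have hg1 : g = 1 := Units.ext h
    rw [hg1, orderOf_one] at h1
    omega
  · intro h
    have hg1 : g ^ (2 ^ m + 1) = 1 := by
      apply Units.ext
      rw [Units.val_pow_eq_pow_val, pow_succ, h, Units.val_one]
    have h5 : orderOf g ∣ 2 ^ m + 1 := orderOf_dvd_of_pow_eq_one hg1
    have h6 : orderOf g ≤ 2 ^ m + 1 := Nat.le_of_dvd (by omega) h5
    omega

theorem perfect_of_theta {K : Type*} [Field K] [Fintype K] {m : ℕ}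
    (hK : Fintype.card K = 2 ^ (2 * m + 1)) (hm : 1 ≤ m)
    (Θ : chevF4.SteinbergGroup K →* GL chevF4.Idx K)
    (hx : ∀ (r : ℕ) (t : K), r < chevF4.nroots →
      ((Θ (chevF4.stGen K r t) : GL chevF4.Idx K) : Matrix chevF4.Idx chevF4.Idx K) =
        chevF4.x K r t) :
    commutator ↥(twistedF4 K (2 ^ m)) = ⊤ := by
  have hc2 : CharP K 2 := charP_two_of_card (n := 2 * m) hK
  have h2 : (2 : K) = 0 := CharTwo.two_eq_zero
  have hp2 : Fact (Nat.Prime 2) := ⟨Nat.prime_two⟩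
  obtain ⟨τ, τ_eq⟩ : ∃ τ : K →+* K, ∀ c : K, τ c = c ^ 2 ^ m :=
    ⟨iterateFrobenius K 2 m, fun c => iterateFrobenius_def 2 m c⟩
  have hτ : ∀ c : K, τ (τ c) ^ 2 = c := by
    intro c
    rw [τ_eq, τ_eq, ← pow_mul, ← pow_mul]
    have h1 : 2 ^ m * (2 ^ m * 2) = Fintype.card K := by rw [hK]; ring
    rw [h1, FiniteField.pow_card]
  obtain ⟨s, hs0, hs1, hs2⟩ := exists_s hK hm
  rw [← τ_eq] at hs2
  have ha0 : τ s ≠ 0 := (map_ne_zero τ).mpr hs0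
  have ne1 : ∀ x : K, x ≠ 1 → x + 1 ≠ 0 := fun x hx h => hx (by linear_combination h - h2)
  have hsq : s ^ 2 ≠ 1 := by
    intro h
    have h3 : (s - 1) ^ 2 = 0 := by linear_combination h + (1 - s) * h2
    exact hs1 (sub_eq_zero.mp (pow_eq_zero_iff (by norm_num) |>.mp h3))
  -- generators
  have hPp : ∀ t : K, Pp K Θ τ t ∈ twistedF4 K (2 ^ m) := fun t =>
    Subgroup.subset_closure ⟨_, Or.inl ⟨t, Or.inl rfl⟩, Pp_val K Θ hx τ (2 ^ m) τ_eq t⟩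
  have hPm : ∀ t : K, Pm K Θ τ t ∈ twistedF4 K (2 ^ m) := fun t =>
    Subgroup.subset_closure ⟨_, Or.inl ⟨t, Or.inr rfl⟩, Pm_val K Θ hx τ (2 ^ m) τ_eq t⟩
  -- the torus element
  obtain ⟨g, hgdef⟩ : ∃ g : GL chevF4.Idx K, g = hf K Θ (τ s) s := ⟨_, rfl⟩
  have hg : g ∈ twistedF4 K (2 ^ m) := by
    rw [hgdef]
    unfold hf
    rw [torus_eq K τ s]
    simp only [map_mul, ← Pp_eq, ← Pm_eq]
    exact mul_mem (mul_mem (mul_mem (hPp _) (hPm _)) (hPp _))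
      (mul_mem (mul_mem (hPp _) (hPm _)) (hPp _))
  have hc : ∀ (r : ℕ), r < chevF4.nroots → ∀ t : K,
      g * xf K Θ r t * g⁻¹ = xf K Θ r (chiF (τ s) s r * t) := fun r hr t => by
    rw [hgdef]; exact hf_conj K Θ hx (τ s) s ha0 hs0 r hr t
  obtain ⟨⟨v33, v24, v14, v23⟩, ⟨v27, v25, v28, v30⟩, ⟨v20, v22, v19, v17⟩⟩ := chiF_vals (τ s) s
  have em : ∀ x y : GL chevF4.Idx K, g * (x * y) * g⁻¹ = (g * x * g⁻¹) * (g * y * g⁻¹) :=
    fun x y => by group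
  obtain ⟨Dc, hDc⟩ : ∃ Dc : Subgroup (GL chevF4.Idx K),
      Dc = (commutator ↥(twistedF4 K (2 ^ m))).map (twistedF4 K (2 ^ m)).subtype := ⟨_, rfl⟩
  have hD : ∀ w : GL chevF4.Idx K, w ∈ twistedF4 K (2 ^ m) → g * w * g⁻¹ * w⁻¹ ∈ Dc := by
    intro w hw
    rw [hDc]
    refine ⟨⁅(⟨g, hg⟩ : ↥(twistedF4 K (2 ^ m))), ⟨w, hw⟩⁆, ?_, rfl⟩
    rw [SetLike.mem_coe, commutator_def]
    exact Subgroup.commutator_mem_commutator (Subgroup.mem_top _) (Subgroup.mem_top _)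
  -- the four families lie in the derived group
  have dPp : ∀ t : K, Pp K Θ τ t ∈ Dc := by
    refine P_mem (Pp K Θ τ) (Pp_add K Θ τ) h2 Dc g (s ^ 2) (ne1 _ hsq) ?_ (fun t => hD _ (hPp t))
    intro t
    unfold Pp
    rw [em, hc 33 (by decide), hc 24 (by decide), v33, v24, map_mul, map_pow]
  have dPm : ∀ t : K, Pm K Θ τ t ∈ Dc := by
    refine P_mem (Pm K Θ τ) (Pm_add K Θ τ) h2 Dc g (s ^ 2)⁻¹
      (ne1 _ (fun h => hsq (inv_eq_one.mp h))) ?_ (fun t => hD _ (hPm t))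
    intro t
    unfold Pm
    rw [em, hc 14 (by decide), hc 23 (by decide), v14, v23, map_mul, map_inv₀, map_pow]
  have hBp : ∀ t u : K, (sysP K Θ).W τ t u ∈ twistedF4 K (2 ^ m) := fun t u =>
    Subgroup.subset_closure ⟨_, Or.inr ⟨t, u, Or.inl rfl⟩, Bp_val K Θ hx τ (2 ^ m) τ_eq t u⟩
  have hBm : ∀ t u : K, (sysM K Θ).W τ t u ∈ twistedF4 K (2 ^ m) := fun t u =>
    Subgroup.subset_closure ⟨_, Or.inr ⟨t, u, Or.inr rfl⟩, Bm_val K Θ hx τ (2 ^ m) τ_eq t u⟩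
  have dBp : ∀ t u : K, (sysP K Θ).W τ t u ∈ Dc := by
    refine (sysP K Θ).W_mem τ h2 hτ Dc g s⁻¹ ((τ s)⁻¹ * s⁻¹)
      (ne1 _ (fun h => hs1 (inv_eq_one.mp h))) (ne1 _ ?_) ?_ (fun t u => hD _ (hBp t u))
    · intro h
      rw [← mul_inv] at h
      exact hs2 (inv_eq_one.mp h)
    · intro t u
      show g * (xf K Θ 27 (τ t) * xf K Θ 25 t * (xf K Θ 28 (τ t * t + u) * xf K Θ 30 (τ u ^ 2))) *
          g⁻¹ = xf K Θ 27 (τ (s⁻¹ * t)) * xf K Θ 25 (s⁻¹ * t) *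
            (xf K Θ 28 (τ (s⁻¹ * t) * (s⁻¹ * t) + (τ s)⁻¹ * s⁻¹ * u) *
              xf K Θ 30 (τ ((τ s)⁻¹ * s⁻¹ * u) ^ 2))
      have e27 : (τ s)⁻¹ * τ t = τ (s⁻¹ * t) := by rw [map_mul, map_inv₀]
      have e28 : (τ s)⁻¹ * s⁻¹ * (τ t * t + u) =
          τ (s⁻¹ * t) * (s⁻¹ * t) + (τ s)⁻¹ * s⁻¹ * u := by
        rw [map_mul, map_inv₀]; ring
      have e30 : (τ s ^ 2)⁻¹ * s⁻¹ * τ u ^ 2 = τ ((τ s)⁻¹ * s⁻¹ * u) ^ 2 := by
        rw [map_mul, map_mul, map_inv₀, map_inv₀, mul_pow, mul_pow, inv_pow, inv_pow, hτ s]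
        ring
      rw [em, em, em, hc 27 (by decide), hc 25 (by decide), hc 28 (by decide), hc 30 (by decide),
        v27, v25, v28, v30, e27, e28, e30]
  have dBm : ∀ t u : K, (sysM K Θ).W τ t u ∈ Dc := by
    refine (sysM K Θ).W_mem τ h2 hτ Dc g s (τ s * s) (ne1 _ hs1) (ne1 _ hs2) ?_
      (fun t u => hD _ (hBm t u))
    intro t u
    show g * (xf K Θ 20 (τ t) * xf K Θ 22 t * (xf K Θ 19 (τ t * t + u) * xf K Θ 17 (τ u ^ 2))) *
        g⁻¹ = xf K Θ 20 (τ (s * t)) * xf K Θ 22 (s * t) *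
          (xf K Θ 19 (τ (s * t) * (s * t) + τ s * s * u) * xf K Θ 17 (τ (τ s * s * u) ^ 2))
    have e20 : τ s * τ t = τ (s * t) := by rw [map_mul]
    have e19 : τ s * s * (τ t * t + u) = τ (s * t) * (s * t) + τ s * s * u := by
      rw [map_mul]; ring
    have e17 : τ s ^ 2 * s * τ u ^ 2 = τ (τ s * s * u) ^ 2 := by
      rw [map_mul, map_mul, mul_pow, mul_pow, hτ s]
      ring
    rw [em, em, em, hc 20 (by decide), hc 22 (by decide), hc 19 (by decide), hc 17 (by decide),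
      v20, v22, v19, v17, e20, e19, e17]
  have key : twistedF4 K (2 ^ m) ≤ Dc := by
    intro x hx'
    have hx'' : x ∈ Subgroup.closure {g : GL chevF4.Idx K | ∃ w ∈ f4Words K (2 ^ m),
        (g : Matrix chevF4.Idx chevF4.Idx K) = chevF4.wordMat K w} := hx'
    refine (Subgroup.closure_le _).mpr ?_ hx''
    rintro y ⟨w, hw, hyw⟩
    rcases hw with ⟨t, hw | hw⟩ | ⟨t, u, hw | hw⟩
    · have hy : y = Pp K Θ τ t := Units.ext (by rw [hyw, hw, Pp_val K Θ hx τ (2 ^ m) τ_eq t])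
      rw [hy]; exact dPp t
    · have hy : y = Pm K Θ τ t := Units.ext (by rw [hyw, hw, Pm_val K Θ hx τ (2 ^ m) τ_eq t])
      rw [hy]; exact dPm t
    · have hy : y = (sysP K Θ).W τ t u :=
        Units.ext (by rw [hyw, hw, Bp_val K Θ hx τ (2 ^ m) τ_eq t u])
      rw [hy]; exact dBp t u
    · have hy : y = (sysM K Θ).W τ t u :=
        Units.ext (by rw [hyw, hw, Bm_val K Θ hx τ (2 ^ m) τ_eq t u])
      rw [hy]; exact dBm t u
  rw [eq_top_iff]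
  intro z _
  rw [hDc] at key
  obtain ⟨z', hz', hzg⟩ := key z.2
  have hzg' : z' = z := Subtype.ext hzg
  rwa [hzg'] at hz'

end Cfsg.Agent.H22.TF4
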