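import Cfsg.Agent.H22.TF4Oc
/-!
The twisted group `²F₄`: the (B, N)-pair (helper22).
-/
set_option autoImplicit false
open Cfsg Cfsg.Lie

namespace Cfsg.Agent.H22.TF4

open Cfsg.Agent.H22 Cfsg.Agent.H22.GEx

open Cfsg.Agent.H23

section generic

variable {D : ChevalleyDatum} {F : Type*} [Field F] {z η : ℕ → ℕ → ℤ}

/-- `n_L B n` lies in the union of the double cosets of the `n_{L'} n`, `L'` a subword of `L` -/
theorem sub_dcB (hP : PackB D F z η) : ∀ (L : List ℕ), (∀ i ∈ L, i < D.rank) →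
    ∀ n ∈ D.monomialSubgroup F, ∀ b ∈ D.borelSubgroup F,
    ∃ sub : List ℕ, sub.Sublist L ∧ nWU hP.sem L * b * n ∈ dcB D F (nWU hP.sem sub * n) := by
  intro L
  induction L with
  | nil =>
    intro _ n hn b hb
    exact ⟨[], List.Sublist.refl _, b, hb, 1, Subgroup.one_mem _, by simp [nWU]⟩
  | cons i L ih =>
    intro hL n hn b hb
    have hi := hL i (List.mem_cons_self ..)
    have hL' : ∀ j ∈ L, j < D.rank := fun j hj => hL j (List.mem_cons_of_mem _ hj)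
    obtain ⟨sub, hsub, b₁, hb₁, b₂, hb₂, e⟩ := ih hL' n hn b hb
    have hsubN : nWU hP.sem sub * n ∈ D.monomialSubgroup F :=
      Subgroup.mul_mem _ (nWU_mem hP.sem hP.tab sub (fun j hj => hL' j (hsub.subset hj))) hn
    have h1 := bn_mul_mem hP.sem hP.semN hP.semC hP.tab hP.tabC hP.etaNeg i hi
      (nWU hP.sem sub * n) hsubN b₁ hb₁
    have e2 : nWU hP.sem (i :: L) * b * n =
        (nU hP.sem (D.simple i) 1 * b₁ * (nWU hP.sem sub * n)) * b₂ := by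
      rw [nWU_cons]
      calc nU hP.sem (D.simple i) 1 * nWU hP.sem L * b * n
          = nU hP.sem (D.simple i) 1 * (nWU hP.sem L * b * n) := by group
        _ = nU hP.sem (D.simple i) 1 * (b₁ * (nWU hP.sem sub * n) * b₂) := by rw [e]
        _ = _ := by group
    rcases h1 with h | h
    · obtain ⟨c₁, hc₁, c₂, hc₂, e3⟩ := DoubleCoset.mem_doubleCoset.mp h
      refine ⟨i :: sub, hsub.cons_cons i, c₁, hc₁, c₂ * b₂, Subgroup.mul_mem _ hc₂ hb₂, ?_⟩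
      rw [e2, e3, nWU_cons]; group
    · obtain ⟨c₁, hc₁, c₂, hc₂, e3⟩ := DoubleCoset.mem_doubleCoset.mp h
      refine ⟨sub, hsub.cons i, c₁, hc₁, c₂ * b₂, Subgroup.mul_mem _ hc₂ hb₂, ?_⟩
      rw [e2, e3]; group

end generic

theorem subP_ok : ∀ sub ∈ LP.sublists, ∀ m < 16,
    (∀ s < 48, reflW chevF4 (altPB m).flatten s = reflW chevF4 sub s) → m = 0 ∨ m = 1 := by
  decide +kernel

theorem subB_ok : ∀ sub ∈ LB.sublists, ∀ m < 16,
    (∀ s < 48, reflW chevF4 (altPB m).flatten s = reflW chevF4 sub s) → m = 0 ∨ m = 15 := by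
  decide +kernel

namespace Ctx4

variable {K : Type*} [Field K] [CharP K 2] {e : ℕ} (C : Ctx4 K e)

include C

/-- the Bruhat decomposition of the twisted group -/
theorem G1_decomp (g : GL chevF4.Idx K) (hg : g ∈ twistedF4 K e) :
    ∃ u₁ ∈ chevF4.posUnipotent K ⊓ twistedF4 K e,
    ∃ h ∈ chevF4.diagonalSubgroup K ⊓ twistedF4 K e, ∃ m < 16,
    ∃ u ∈ chevF4.posUnipotent K ⊓ twistedF4 K e, g = u₁ * h * repW K m * u := by
  have hS := (packF K).sem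
  obtain ⟨hG, hfix⟩ := C.Fx_of_mem g hg
  obtain ⟨u₁, n, u, hu₁, hfu₁, hnN, hfn, hu, hfu, e0⟩ := C.fix_canon4 ⟨g, hG⟩ hfix
  have e' : g = u₁ * n * u := e0
  have hu₁G := C.U_fix_mem u₁ hu₁ hfu₁
  have huG := C.U_fix_mem u (UmG_le_pos n hu) hfu
  have hnG : n ∈ twistedF4 K e := by
    have : n = u₁⁻¹ * g * u⁻¹ := by rw [e']; group
    rw [this]
    exact Subgroup.mul_mem _ (Subgroup.mul_mem _ (Subgroup.inv_mem _ hu₁G) hg)
      (Subgroup.inv_mem _ huG)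
  obtain ⟨h, hh, m, hm, rfl⟩ := C.N1_surj n (Subgroup.mem_inf.mpr ⟨hnN, hnG⟩)
  refine ⟨u₁, Subgroup.mem_inf.mpr ⟨hu₁, hu₁G⟩, h, hh, m, hm, u,
    Subgroup.mem_inf.mpr ⟨UmG_le_pos _ hu, huG⟩, ?_⟩
  rw [e']; group

/-- the double coset condition for a block element -/
theorem bn_union (L : List ℕ) (hL : ∀ i ∈ L, i < chevF4.rank) (m₁ : ℕ)
    (hs : nWU (packF K).sem L ∈ twistedF4 K e) (h₃ : GL chevF4.Idx K)
    (hh₃ : h₃ ∈ chevF4.diagonalSubgroup K ⊓ twistedF4 K e)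
    (hs3 : nWU (packF K).sem L = h₃ * repW K m₁)
    (hdec : ∀ sub ∈ L.sublists, ∀ m < 16,
      (∀ s < 48, reflW chevF4 (altPB m).flatten s = reflW chevF4 sub s) → m = 0 ∨ m = m₁)
    (n b : GL chevF4.Idx K) (hn : n ∈ chevF4.monomialSubgroup K ⊓ twistedF4 K e)
    (hb : b ∈ chevF4.borelSubgroup K ⊓ twistedF4 K e) :
    ∃ b₁ ∈ chevF4.borelSubgroup K ⊓ twistedF4 K e,
    ∃ b₂ ∈ chevF4.borelSubgroup K ⊓ twistedF4 K e,
      nWU (packF K).sem L * b * n = b₁ * (nWU (packF K).sem L * n) * b₂ ∨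
      nWU (packF K).sem L * b * n = b₁ * n * b₂ := by
  have hP := packF K
  have hS := hP.sem
  have hT := hP.tab
  have hUB : chevF4.posUnipotent K ≤ chevF4.borelSubgroup K := le_sup_left
  have hHB : chevF4.diagonalSubgroup K ≤ chevF4.borelSubgroup K := le_sup_right
  obtain ⟨hn1, hn2⟩ := Subgroup.mem_inf.mp hn
  obtain ⟨hb1, hb2⟩ := Subgroup.mem_inf.mp hb
  have hg : nWU (packF K).sem L * b * n ∈ twistedF4 K e :=
    Subgroup.mul_mem _ (Subgroup.mul_mem _ hs hb2) hn2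
  obtain ⟨sub, hsub, hg1⟩ := sub_dcB (packF K) L hL n hn1 b hb1
  have hsublt : ∀ i ∈ sub, i < chevF4.rank := fun i hi => hL i (hsub.subset hi)
  obtain ⟨u₁, hu₁, h, hh, m, hm, u, hu, e0⟩ := C.G1_decomp _ hg
  have hg2 : nWU (packF K).sem L * b * n ∈ dcB chevF4 K (repW K m) :=
    ⟨u₁ * h, Subgroup.mul_mem _ (hUB hu₁.1) (hHB hh.1), u, hUB hu.1, e0⟩
  have h1 : repW K m ∈ dcB chevF4 K (nWU (packF K).sem sub * n) := by
    rw [← dcB_eq_of_mem hg1, dcB_eq_of_mem hg2]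
    exact mem_dcB_self _
  have hsubN : nWU (packF K).sem sub * n ∈ chevF4.monomialSubgroup K :=
    Subgroup.mul_mem _ (nWU_mem hS hT sub hsublt) hn1
  have h2 := inv_mul_mem_of_mem_dcB hP hsubN (rep_N m) h1
  have h2' : (nWU (packF K).sem sub * n)⁻¹ * repW K m ∈ chevF4.diagonalSubgroup K := by
    rw [← borel_inf_monomial hS]
    exact Subgroup.mem_inf.mpr ⟨h2, Subgroup.mul_mem _ (Subgroup.inv_mem _ hsubN) (rep_N m)⟩
  obtain ⟨h₂, hh₂, m', hm', hv⟩ := C.N1_surj (repW K m * n⁻¹)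
    (Subgroup.mem_inf.mpr ⟨Subgroup.mul_mem _ (rep_N m) (Subgroup.inv_mem _ hn1),
      Subgroup.mul_mem _ (C.rep_mem m) (Subgroup.inv_mem _ hn2)⟩)
  have h3 : repW K m' ∈ dcB chevF4 K (nWU (packF K).sem sub) := by
    have hc := (Subgroup.mem_normalizer_iff.mp
      (monomial_le_normalizer_diag hS hP.semN hT hP.etaNeg hn1) _).mp h2'
    have e1 : (nWU (packF K).sem sub)⁻¹ * (h₂ * repW K m') =
        n * ((nWU (packF K).sem sub * n)⁻¹ * repW K m) * n⁻¹ := by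
      rw [← hv]; group
    refine ⟨h₂⁻¹, Subgroup.inv_mem _ (hHB hh₂.1), (nWU (packF K).sem sub)⁻¹ * (h₂ * repW K m'),
      ?_, by group⟩
    rw [e1]; exact hHB hc
  have h4 := dcB_eq_of_mem h3
  have h5 := refl_eq_of_dcB_word_eq hP (altPB m').flatten sub (blocks_lt _ (altPB_blocks m'))
    hsublt h4
  have hρ : repW K m = h₂ * repW K m' * n := by rw [← hv]; group
  have hB1 : ∀ x : GL chevF4.Idx K, x ∈ chevF4.diagonalSubgroup K ⊓ twistedF4 K e →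
      x ∈ chevF4.borelSubgroup K ⊓ twistedF4 K e := fun x hx =>
    Subgroup.mem_inf.mpr ⟨hHB hx.1, hx.2⟩
  have hU1 : ∀ x : GL chevF4.Idx K, x ∈ chevF4.posUnipotent K ⊓ twistedF4 K e →
      x ∈ chevF4.borelSubgroup K ⊓ twistedF4 K e := fun x hx =>
    Subgroup.mem_inf.mpr ⟨hUB hx.1, hx.2⟩
  rcases hdec sub (List.mem_sublists.mpr hsub) m' hm' h5 with h0 | h0
  · refine ⟨u₁ * h * h₂, Subgroup.mul_mem _ (Subgroup.mul_mem _ (hU1 _ hu₁) (hB1 _ hh))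
      (hB1 _ hh₂), u, hU1 _ hu, Or.inr ?_⟩
    rw [e0, hρ, h0, repW_zero]; group
  · refine ⟨u₁ * h * h₂ * h₃⁻¹, Subgroup.mul_mem _ (Subgroup.mul_mem _
      (Subgroup.mul_mem _ (hU1 _ hu₁) (hB1 _ hh)) (hB1 _ hh₂)) (Subgroup.inv_mem _ (hB1 _ hh₃)),
      u, hU1 _ hu, Or.inl ?_⟩
    rw [e0, hρ, h0, hs3]; group

end Ctx4

end Cfsg.Agent.H22.TF4
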