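import Cfsg.Agent.H22.TF4Qa
/-!
The twisted group `²F₄`: the (B, N)-pair, the structure (helper22).
-/
set_option autoImplicit false
open Cfsg Cfsg.Lie

namespace Cfsg.Agent.H22.TF4

open Cfsg.Agent.H22 Cfsg.Agent.H22.GEx

open Cfsg.Agent.H23

namespace Ctx4

variable {K : Type*} [Field K] [CharP K 2] {e : ℕ} (C : Ctx4 K e)

include C

theorem rep1 : repW K 1 = (C.nPg : GL chevF4.Idx K) := by
  show repW K (0 + 1) = _
  rw [repW_succ, repW_zero, one_mul, if_pos (by norm_num), C.nPg_coe]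

theorem nB_rep15 : ∃ h₃ ∈ chevF4.diagonalSubgroup K ⊓ twistedF4 K e,
    (C.nBg : GL chevF4.Idx K) = h₃ * repW K 15 := by
  have e16 : repW K 16 = repW K 15 * (C.nBg : GL chevF4.Idx K) := by
    show repW K (15 + 1) = _
    rw [repW_succ, if_neg (by norm_num), ← C.nBg_coe]
  refine ⟨(C.nBg : GL chevF4.Idx K) * (C.nBg : GL chevF4.Idx K) * (repW K 16)⁻¹,
    Subgroup.mul_mem _ C.nBB_mem (Subgroup.inv_mem _ C.rep16_mem), ?_⟩
  rw [e16]; group

/-- nontrivial fixed points -/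
theorem exists_ne_one [Finite K] (m : ℕ) (hm : m < 16) (hexp : 0 < expo m) :
    ∃ x ∈ C.FS (altPB m).flatten, x ≠ 1 := by
  by_contra hcon
  push Not at hcon
  have hsub : Subsingleton ↥(C.FS (altPB m).flatten) :=
    ⟨fun a b => Subtype.ext ((hcon a a.2).trans (hcon b b.2).symm)⟩
  have h1 : Nat.card ↥(C.FS (altPB m).flatten) ≤ 1 := Finite.card_le_one_iff_subsingleton.mpr hsub
  rw [C.card_rep m hm] at h1
  have h2 : 1 < Nat.card K := Finite.one_lt_card
  have h3 : Nat.card K ≤ Nat.card K ^ expo m := Nat.le_self_pow (by omega) _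
  omega

/-- the block elements do not normalize `B` -/
theorem conj_not_mem [Finite K] (s : GL chevF4.Idx K) (hsH : s * s ∈ chevF4.diagonalSubgroup K)
    (m : ℕ) (hm : m < 16) (hexp : 0 < expo m)
    (hU : UmG chevF4 K s = UmG chevF4 K (repW K m)) :
    ∃ x ∈ chevF4.posUnipotent K ⊓ twistedF4 K e, s * x * s ∉ chevF4.borelSubgroup K := by
  have hP := packF K
  have hS := hP.sem
  have hV := semVF K
  obtain ⟨x, hx, hx1⟩ := C.exists_ne_one m hm hexp
  have hxU : x ∈ UmG chevF4 K s := by rw [hU]; exact hx.1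
  refine ⟨x, Subgroup.mem_inf.mpr ⟨UmG_le_pos _ hxU, C.U_fix_mem x (UmG_le_pos _ hxU) hx.2⟩, ?_⟩
  intro hcon
  have h1 : s * x * s⁻¹ ∈ chevF4.negUnipotent K := conj_UmG_mem s x hxU
  have h2 : s * x * s⁻¹ ∈ chevF4.borelSubgroup K := by
    have e1 : s * x * s⁻¹ = (s * x * s) * (s * s)⁻¹ := by group
    rw [e1]
    exact Subgroup.mul_mem _ hcon
      (Subgroup.inv_mem _ ((le_sup_right : chevF4.diagonalSubgroup K ≤ _) hsH))
  have h3 : s * x * s⁻¹ ∈ chevF4.borelSubgroup K ⊓ chevF4.negUnipotent K :=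
    Subgroup.mem_inf.mpr ⟨h2, h1⟩
  rw [Cfsg.Agent.H23.borel_inf_neg hS hV, Subgroup.mem_bot] at h3
  apply hx1
  have e2 : x = s⁻¹ * (s * x * s⁻¹) * s := by group
  rw [e2, h3]; group

theorem nPinv_nB_not_mem [Finite K] :
    (C.nPg : GL chevF4.Idx K)⁻¹ * (C.nBg : GL chevF4.Idx K) ∉ chevF4.borelSubgroup K := by
  have hS := (packF K).sem
  intro hcon
  have h0 : (C.nPg : GL chevF4.Idx K)⁻¹ * (C.nBg : GL chevF4.Idx K) ∈
      chevF4.diagonalSubgroup K ⊓ twistedF4 K e := by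
    refine Subgroup.mem_inf.mpr ⟨?_, Subgroup.mul_mem _ (Subgroup.inv_mem _ C.nPg_mem) C.nBg_mem⟩
    rw [← borel_inf_monomial hS]
    exact Subgroup.mem_inf.mpr ⟨hcon, Subgroup.mul_mem _ (Subgroup.inv_mem _ C.nPg_N) C.nBg_N⟩
  obtain ⟨h₃, hh₃, e3⟩ := C.nB_rep15
  have hconj := conj_H1 e (C.nPg : GL chevF4.Idx K) _
    (Subgroup.mem_inf.mpr ⟨C.nPg_N, C.nPg_mem⟩) h0
  have e1 : ((C.nPg : GL chevF4.Idx K) * ((C.nPg : GL chevF4.Idx K)⁻¹ *
      (C.nBg : GL chevF4.Idx K)) * (C.nPg : GL chevF4.Idx K)⁻¹) * repW K 1 = h₃ * repW K 15 := by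
    rw [C.rep1, ← e3]; group
  have h9 := (C.rep_inj _ _ hconj hh₃ 1 15 (by norm_num) (by norm_num) e1).2
  norm_num at h9

/-- the (B, N)-pair of the twisted group -/
noncomputable def bnP [Finite K] : Cfsg.BNPair ↥(twistedF4 K e) := by
  have hP := packF K
  have hS := hP.sem
  have hT := hP.tab
  have hV := semVF K
  have hUB : chevF4.posUnipotent K ≤ chevF4.borelSubgroup K := le_sup_left
  have hHB : chevF4.diagonalSubgroup K ≤ chevF4.borelSubgroup K := le_sup_right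
  have hsub : ({⟨(C.nPg : GL chevF4.Idx K), C.nPg_mem⟩, ⟨(C.nBg : GL chevF4.Idx K), C.nBg_mem⟩} :
      Set ↥(twistedF4 K e)) ⊆
      (((chevF4.monomialSubgroup K ⊓ twistedF4 K e).subgroupOf (twistedF4 K e) :
        Subgroup ↥(twistedF4 K e)) : Set ↥(twistedF4 K e)) := by
    rintro s (rfl | hs)
    · exact Subgroup.mem_subgroupOf.mpr (Subgroup.mem_inf.mpr ⟨C.nPg_N, C.nPg_mem⟩)
    · rw [Set.mem_singleton_iff] at hs
      subst hs
      exact Subgroup.mem_subgroupOf.mpr (Subgroup.mem_inf.mpr ⟨C.nBg_N, C.nBg_mem⟩)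
  exact
    { B := (chevF4.borelSubgroup K ⊓ twistedF4 K e).subgroupOf (twistedF4 K e)
      N := (chevF4.monomialSubgroup K ⊓ twistedF4 K e).subgroupOf (twistedF4 K e)
      S := {⟨(C.nPg : GL chevF4.Idx K), C.nPg_mem⟩, ⟨(C.nBg : GL chevF4.Idx K), C.nBg_mem⟩}
      sup_eq_top := by
        rw [eq_top_iff]
        rintro ⟨g, hg⟩ -
        obtain ⟨u₁, hu₁, h, hh, m, hm, u, hu, e0⟩ := C.G1_decomp g hg
        have e1 : (⟨g, hg⟩ : ↥(twistedF4 K e)) =
            ⟨u₁, hu₁.2⟩ * ⟨h, hh.2⟩ * ⟨repW K m, C.rep_mem m⟩ * ⟨u, hu.2⟩ := Subtype.ext e0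
        rw [e1]
        refine Subgroup.mul_mem _ (Subgroup.mul_mem _ (Subgroup.mul_mem _
          (Subgroup.mem_sup_left ?_) (Subgroup.mem_sup_left ?_)) (Subgroup.mem_sup_right ?_))
          (Subgroup.mem_sup_left ?_)
        · exact Subgroup.mem_subgroupOf.mpr (Subgroup.mem_inf.mpr ⟨hUB hu₁.1, hu₁.2⟩)
        · exact Subgroup.mem_subgroupOf.mpr (Subgroup.mem_inf.mpr ⟨hHB hh.1, hh.2⟩)
        · exact Subgroup.mem_subgroupOf.mpr (Subgroup.mem_inf.mpr ⟨rep_N m, C.rep_mem m⟩)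
        · exact Subgroup.mem_subgroupOf.mpr (Subgroup.mem_inf.mpr ⟨hUB hu.1, hu.2⟩)
      conj_mem := by
        intro n hn t ht
        rw [Subgroup.mem_subgroupOf] at hn ⊢
        have ht1 := Subgroup.mem_subgroupOf.mp ht.1
        have ht2 := Subgroup.mem_subgroupOf.mp ht.2
        have htH : (t : GL chevF4.Idx K) ∈ chevF4.diagonalSubgroup K ⊓ twistedF4 K e := by
          refine Subgroup.mem_inf.mpr ⟨?_, t.2⟩
          rw [← borel_inf_monomial hS]
          exact Subgroup.mem_inf.mpr ⟨ht1.1, ht2.1⟩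
        have h1 := conj_H1 e _ _ hn htH
        exact Subgroup.mem_inf.mpr ⟨hHB h1.1, h1.2⟩
      subset := hsub
      sq_mem := by
        rintro s (rfl | hs)
        · rw [Subgroup.mem_subgroupOf]
          have h1 := C.nPP_mem
          exact Subgroup.mem_inf.mpr ⟨hHB h1.1, h1.2⟩
        · rw [Set.mem_singleton_iff] at hs
          subst hs
          rw [Subgroup.mem_subgroupOf]
          have h1 := C.nBB_mem
          exact Subgroup.mem_inf.mpr ⟨hHB h1.1, h1.2⟩
      inj := by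
        rintro s (rfl | hs) s' (rfl | hs') h
        · rfl
        · rw [Set.mem_singleton_iff] at hs'
          subst hs'
          exfalso
          exact C.nPinv_nB_not_mem (Subgroup.mem_subgroupOf.mp h).1
        · rw [Set.mem_singleton_iff] at hs
          subst hs
          exfalso
          have h' : (C.nBg : GL chevF4.Idx K)⁻¹ * (C.nPg : GL chevF4.Idx K) ∈
              chevF4.borelSubgroup K := (Subgroup.mem_subgroupOf.mp h).1
          apply C.nPinv_nB_not_mem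
          have e1 : (C.nPg : GL chevF4.Idx K)⁻¹ * (C.nBg : GL chevF4.Idx K) =
              ((C.nBg : GL chevF4.Idx K)⁻¹ * (C.nPg : GL chevF4.Idx K))⁻¹ := by group
          rw [e1]
          exact Subgroup.inv_mem _ h'
        · rw [Set.mem_singleton_iff] at hs hs'
          rw [hs, hs']
      closure_sup := by
        apply le_antisymm
        · apply sup_le
          · rw [Subgroup.closure_le]; exact hsub
          · exact inf_le_right
        · rintro ⟨n, hnG⟩ hn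
          rw [Subgroup.mem_subgroupOf] at hn
          obtain ⟨h', hh', m, hm, e0⟩ := C.N1_decomp n hn.1 hn.2
          have hm' : m ∈ (Subgroup.closure ({⟨(C.nPg : GL chevF4.Idx K), C.nPg_mem⟩,
              ⟨(C.nBg : GL chevF4.Idx K), C.nBg_mem⟩} : Set ↥(twistedF4 K e))).map
              (twistedF4 K e).subtype := by
            rw [MonoidHom.map_closure, Set.image_pair]; exact hm
          obtain ⟨m', hm'c, rfl⟩ := Subgroup.mem_map.mp hm'
          have e1 : (⟨n, hnG⟩ : ↥(twistedF4 K e)) = ⟨h', hh'.2⟩ * m' := Subtype.ext e0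
          rw [e1]
          refine Subgroup.mul_mem _ (Subgroup.mem_sup_right ?_) (Subgroup.mem_sup_left hm'c)
          exact Subgroup.mem_inf.mpr
            ⟨Subgroup.mem_subgroupOf.mpr (Subgroup.mem_inf.mpr ⟨hHB hh'.1, hh'.2⟩),
              Subgroup.mem_subgroupOf.mpr (Subgroup.mem_inf.mpr
                ⟨diagonal_le_monomial hh'.1, hh'.2⟩)⟩
      mul_mem_union := by
        rintro s (rfl | hs) n hn b hb
        · obtain ⟨b₁, hb₁, b₂, hb₂, h⟩ := C.bn_union LP LP_lt 1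
            (by rw [← C.nPg_coe]; exact C.nPg_mem) 1 (Subgroup.one_mem _)
            (by rw [one_mul, C.rep1, C.nPg_coe]) subP_ok n b (Subgroup.mem_subgroupOf.mp hn)
            (Subgroup.mem_subgroupOf.mp hb)
          rw [← C.nPg_coe] at h
          rcases h with h | h
          · left
            exact DoubleCoset.mem_doubleCoset.mpr ⟨⟨b₁, hb₁.2⟩, Subgroup.mem_subgroupOf.mpr hb₁,
              ⟨b₂, hb₂.2⟩, Subgroup.mem_subgroupOf.mpr hb₂, Subtype.ext h⟩
          · right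
            exact DoubleCoset.mem_doubleCoset.mpr ⟨⟨b₁, hb₁.2⟩, Subgroup.mem_subgroupOf.mpr hb₁,
              ⟨b₂, hb₂.2⟩, Subgroup.mem_subgroupOf.mpr hb₂, Subtype.ext h⟩
        · rw [Set.mem_singleton_iff] at hs
          subst hs
          obtain ⟨h₃, hh₃, e3⟩ := C.nB_rep15
          obtain ⟨b₁, hb₁, b₂, hb₂, h⟩ := C.bn_union LB LB_lt 15
            (by rw [← C.nBg_coe]; exact C.nBg_mem) h₃ hh₃
            (by rw [← C.nBg_coe]; exact e3) subB_ok n b (Subgroup.mem_subgroupOf.mp hn)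
            (Subgroup.mem_subgroupOf.mp hb)
          rw [← C.nBg_coe] at h
          rcases h with h | h
          · left
            exact DoubleCoset.mem_doubleCoset.mpr ⟨⟨b₁, hb₁.2⟩, Subgroup.mem_subgroupOf.mpr hb₁,
              ⟨b₂, hb₂.2⟩, Subgroup.mem_subgroupOf.mpr hb₂, Subtype.ext h⟩
          · right
            exact DoubleCoset.mem_doubleCoset.mpr ⟨⟨b₁, hb₁.2⟩, Subgroup.mem_subgroupOf.mpr hb₁,
              ⟨b₂, hb₂.2⟩, Subgroup.mem_subgroupOf.mpr hb₂, Subtype.ext h⟩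
      conj_ne := by
        rintro s (rfl | hs) heq
        · obtain ⟨x, hx, hnot⟩ := C.conj_not_mem (C.nPg : GL chevF4.Idx K) C.nPP_mem.1 1
            (by norm_num) (by decide) (by rw [C.rep1])
          have hmem : (⟨(C.nPg : GL chevF4.Idx K), C.nPg_mem⟩ : ↥(twistedF4 K e)) * ⟨x, hx.2⟩ *
              ⟨(C.nPg : GL chevF4.Idx K), C.nPg_mem⟩ ∈
              (fun b : ↥(twistedF4 K e) => (⟨(C.nPg : GL chevF4.Idx K), C.nPg_mem⟩ :
                ↥(twistedF4 K e)) * b * ⟨(C.nPg : GL chevF4.Idx K), C.nPg_mem⟩) ''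
              (((chevF4.borelSubgroup K ⊓ twistedF4 K e).subgroupOf (twistedF4 K e) :
                Subgroup ↥(twistedF4 K e)) : Set ↥(twistedF4 K e)) :=
            ⟨⟨x, hx.2⟩, Subgroup.mem_subgroupOf.mpr (Subgroup.mem_inf.mpr ⟨hUB hx.1, hx.2⟩), rfl⟩
          rw [heq, SetLike.mem_coe, Subgroup.mem_subgroupOf] at hmem
          exact hnot hmem.1
        · rw [Set.mem_singleton_iff] at hs
          subst hs
          obtain ⟨h₃, hh₃, e3⟩ := C.nB_rep15
          obtain ⟨x, hx, hnot⟩ := C.conj_not_mem (C.nBg : GL chevF4.Idx K) C.nBB_mem.1 15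
            (by norm_num) (by decide) (by rw [e3, UmG_diag_mul' hS _ _ hh₃.1])
          have hmem : (⟨(C.nBg : GL chevF4.Idx K), C.nBg_mem⟩ : ↥(twistedF4 K e)) * ⟨x, hx.2⟩ *
              ⟨(C.nBg : GL chevF4.Idx K), C.nBg_mem⟩ ∈
              (fun b : ↥(twistedF4 K e) => (⟨(C.nBg : GL chevF4.Idx K), C.nBg_mem⟩ :
                ↥(twistedF4 K e)) * b * ⟨(C.nBg : GL chevF4.Idx K), C.nBg_mem⟩) ''
              (((chevF4.borelSubgroup K ⊓ twistedF4 K e).subgroupOf (twistedF4 K e) :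
                Subgroup ↥(twistedF4 K e)) : Set ↥(twistedF4 K e)) :=
            ⟨⟨x, hx.2⟩, Subgroup.mem_subgroupOf.mpr (Subgroup.mem_inf.mpr ⟨hUB hx.1, hx.2⟩), rfl⟩
          rw [heq, SetLike.mem_coe, Subgroup.mem_subgroupOf] at hmem
          exact hnot hmem.1 }

theorem bnP_B [Finite K] : C.bnP.B =
    (chevF4.borelSubgroup K ⊓ twistedF4 K e).subgroupOf (twistedF4 K e) := rfl

theorem bnP_N [Finite K] : C.bnP.N =
    (chevF4.monomialSubgroup K ⊓ twistedF4 K e).subgroupOf (twistedF4 K e) := rfl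

theorem bnP_S [Finite K] : C.bnP.S =
    {⟨(C.nPg : GL chevF4.Idx K), C.nPg_mem⟩, ⟨(C.nBg : GL chevF4.Idx K), C.nBg_mem⟩} := rfl

end Ctx4

end Cfsg.Agent.H22.TF4
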