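import Cfsg.Agent.H22.TF4Qb
import Cfsg.Agent.H8BN4
/-!
The twisted group `²F₄`: simplicity from the (B, N)-pair (helper22).
-/
set_option autoImplicit false
open Cfsg Cfsg.Lie

namespace Cfsg.Agent.H22.TF4

open Cfsg.Agent.H22 Cfsg.Agent.H22.GEx

open Cfsg.Agent.H23

namespace Ctx4

variable {K : Type*} [Field K] [CharP K 2] {e : ℕ} (C : Ctx4 K e)

include C

theorem rep4 : repW K 4 = (C.nPg : GL chevF4.Idx K) * (C.nBg : GL chevF4.Idx K) *
    (C.nPg : GL chevF4.Idx K) * (C.nBg : GL chevF4.Idx K) := by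
  have h2 : repW K 2 = repW K 1 * nWU (packF K).sem LB := by
    show repW K (1 + 1) = _
    rw [repW_succ, if_neg (by norm_num)]
  have h3 : repW K 3 = repW K 2 * nWU (packF K).sem LP := by
    show repW K (2 + 1) = _
    rw [repW_succ, if_pos (by norm_num)]
  have h4 : repW K 4 = repW K 3 * nWU (packF K).sem LB := by
    show repW K (3 + 1) = _
    rw [repW_succ, if_neg (by norm_num)]
  rw [h4, h3, h2, C.rep1, ← C.nPg_coe, ← C.nBg_coe]

/-- the two block elements do not commute modulo `B` -/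
theorem comm_not_mem [Finite K] :
    (C.nPg : GL chevF4.Idx K) * (C.nBg : GL chevF4.Idx K) * (C.nPg : GL chevF4.Idx K)⁻¹ *
      (C.nBg : GL chevF4.Idx K)⁻¹ ∉ chevF4.borelSubgroup K := by
  have hS := (packF K).sem
  intro hcon
  have hcH : (C.nPg : GL chevF4.Idx K) * (C.nBg : GL chevF4.Idx K) *
      (C.nPg : GL chevF4.Idx K)⁻¹ * (C.nBg : GL chevF4.Idx K)⁻¹ ∈
      chevF4.diagonalSubgroup K ⊓ twistedF4 K e := by
    refine Subgroup.mem_inf.mpr ⟨?_, Subgroup.mul_mem _ (Subgroup.mul_mem _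
      (Subgroup.mul_mem _ C.nPg_mem C.nBg_mem) (Subgroup.inv_mem _ C.nPg_mem))
      (Subgroup.inv_mem _ C.nBg_mem)⟩
    rw [← borel_inf_monomial hS]
    exact Subgroup.mem_inf.mpr ⟨hcon, Subgroup.mul_mem _ (Subgroup.mul_mem _
      (Subgroup.mul_mem _ C.nPg_N C.nBg_N) (Subgroup.inv_mem _ C.nPg_N))
      (Subgroup.inv_mem _ C.nBg_N)⟩
  have e5 : (C.nPg : GL chevF4.Idx K) * (C.nBg : GL chevF4.Idx K) *
      (C.nPg : GL chevF4.Idx K) * (C.nBg : GL chevF4.Idx K) =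
      ((C.nPg : GL chevF4.Idx K) * (C.nBg : GL chevF4.Idx K) *
        (C.nPg : GL chevF4.Idx K)⁻¹ * (C.nBg : GL chevF4.Idx K)⁻¹) *
      ((C.nBg : GL chevF4.Idx K) * ((C.nPg : GL chevF4.Idx K) * (C.nPg : GL chevF4.Idx K)) *
        (C.nBg : GL chevF4.Idx K)⁻¹) *
      ((C.nBg : GL chevF4.Idx K) * (C.nBg : GL chevF4.Idx K)) := by group
  have hh := Subgroup.mul_mem _ (Subgroup.mul_mem _ hcH
    (conj_H1 e (C.nBg : GL chevF4.Idx K) _ (Subgroup.mem_inf.mpr ⟨C.nBg_N, C.nBg_mem⟩)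
      C.nPP_mem)) C.nBB_mem
  have e6 : 1 * repW K 4 = (((C.nPg : GL chevF4.Idx K) * (C.nBg : GL chevF4.Idx K) *
        (C.nPg : GL chevF4.Idx K)⁻¹ * (C.nBg : GL chevF4.Idx K)⁻¹) *
      ((C.nBg : GL chevF4.Idx K) * ((C.nPg : GL chevF4.Idx K) * (C.nPg : GL chevF4.Idx K)) *
        (C.nBg : GL chevF4.Idx K)⁻¹) *
      ((C.nBg : GL chevF4.Idx K) * (C.nBg : GL chevF4.Idx K))) * repW K 0 := by
    rw [one_mul, repW_zero, mul_one, C.rep4, e5]
  have h9 := (C.rep_inj 1 _ (Subgroup.one_mem _) hh 4 0 (by norm_num) (by norm_num) e6).2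
  norm_num at h9

theorem bnP_irreducible [Finite K] : C.bnP.Irreducible := by
  intro J hJ hJne hJc
  obtain ⟨s, hs⟩ := hJne
  obtain ⟨s', hs'⟩ := hJc
  refine ⟨s, hs, s', hs', ?_⟩
  have hsS : s ∈ ({⟨(C.nPg : GL chevF4.Idx K), C.nPg_mem⟩,
      ⟨(C.nBg : GL chevF4.Idx K), C.nBg_mem⟩} : Set ↥(twistedF4 K e)) := hJ hs
  have hs'S : s' ∈ ({⟨(C.nPg : GL chevF4.Idx K), C.nPg_mem⟩,
      ⟨(C.nBg : GL chevF4.Idx K), C.nBg_mem⟩} : Set ↥(twistedF4 K e)) := hs'.1
  have hne : s ≠ s' := fun h => hs'.2 (h ▸ hs)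
  rw [C.bnP_B]
  rcases hsS with hsS | hsS <;> rcases hs'S with hs'S | hs'S
  · exact absurd (hsS.trans hs'S.symm) hne
  · rw [Set.mem_singleton_iff] at hs'S
    rw [hsS, hs'S]
    intro hcon
    exact C.comm_not_mem (Subgroup.mem_subgroupOf.mp hcon).1
  · rw [Set.mem_singleton_iff] at hsS
    rw [hsS, hs'S]
    intro hcon
    have h' : (C.nBg : GL chevF4.Idx K) * (C.nPg : GL chevF4.Idx K) *
        (C.nBg : GL chevF4.Idx K)⁻¹ * (C.nPg : GL chevF4.Idx K)⁻¹ ∈ chevF4.borelSubgroup K :=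
      (Subgroup.mem_subgroupOf.mp hcon).1
    apply C.comm_not_mem
    have e1 : (C.nPg : GL chevF4.Idx K) * (C.nBg : GL chevF4.Idx K) *
        (C.nPg : GL chevF4.Idx K)⁻¹ * (C.nBg : GL chevF4.Idx K)⁻¹ =
        ((C.nBg : GL chevF4.Idx K) * (C.nPg : GL chevF4.Idx K) *
        (C.nBg : GL chevF4.Idx K)⁻¹ * (C.nPg : GL chevF4.Idx K)⁻¹)⁻¹ := by group
    rw [e1]
    exact Subgroup.inv_mem _ h'
  · rw [Set.mem_singleton_iff] at hsS hs'S
    exact absurd (hsS.trans hs'S.symm) hne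

/-- simplicity of the twisted group -/
theorem simple_of [Finite K] (hperf : commutator ↥(twistedF4 K e) = ⊤)
    (hcore : ((chevF4.borelSubgroup K ⊓ twistedF4 K e).subgroupOf (twistedF4 K e)).normalCore = ⊥) :
    IsSimpleGroup ↥(twistedF4 K e) ∧ ¬ IsMulCommutative ↥(twistedF4 K e) := by
  have hS := (packF K).sem
  have hnt : Nontrivial ↥(twistedF4 K e) := by
    obtain ⟨x, hx, hx1⟩ := C.exists_ne_one 1 (by norm_num) (by decide)
    have hxG := C.U_fix_mem x (UmG_le_pos _ hx.1) hx.2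
    exact ⟨⟨x, hxG⟩, 1, fun h => hx1 (congrArg Subtype.val h)⟩
  have hnc : ¬ IsMulCommutative ↥(twistedF4 K e) := by
    intro hc
    have hbot : commutator ↥(twistedF4 K e) = ⊥ := by
      rw [eq_bot_iff, commutator_def, Subgroup.commutator_le]
      intro g₁ _ g₂ _
      rw [Subgroup.mem_bot, commutatorElement_def, mul_comm' g₁ g₂]
      group
    rw [hbot] at hperf
    exact bot_ne_top hperf
  refine ⟨?_, hnc⟩
  have hsolv : Group.IsSolvable ↥(C.bnP.B) := by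
    show Group.IsSolvable
      ↥((chevF4.borelSubgroup K ⊓ twistedF4 K e).subgroupOf (twistedF4 K e))
    have := borel_isSolvable hS
    have hle1 : chevF4.borelSubgroup K ⊓ twistedF4 K e ≤ chevF4.borelSubgroup K := inf_le_left
    have hle2 : chevF4.borelSubgroup K ⊓ twistedF4 K e ≤ twistedF4 K e := inf_le_right
    exact Group.isSolvable_of_isSolvable_injective
      (f := (Subgroup.inclusion hle1).comp (Subgroup.subgroupOfEquivOfLe hle2).toMonoidHom)
      ((Subgroup.inclusion_injective hle1).comp (Subgroup.subgroupOfEquivOfLe hle2).injective)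
  exact Cfsg.H8BN.isSimpleGroup_of_irreducible C.bnP C.bnP_irreducible hsolv hperf hcore

end Ctx4

end Cfsg.Agent.H22.TF4
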