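import Cfsg.Agent.H22.TF4Oc
/-!
The twisted group `²F₄`: the exponent of the unipotent subgroup (helper22).
-/
set_option autoImplicit false
open Cfsg Cfsg.Lie

namespace Cfsg.Agent.H22.TF4

open Cfsg.Agent.H22 Cfsg.Agent.H22.GEx

open Cfsg.Agent.H23

/-- the heights of the roots of `F₄`, shifted by 11 -/
def hF : List ℕ := [0, 1, 2, 3, 4, 5, 6, 4, 5, 6, 7, 7, 8, 9, 10, 6, 7, 8, 8, 9, 10, 9, 10, 10, 12,
  12, 13, 12, 13, 14, 14, 15, 16, 12, 13, 14, 15, 15, 16, 17, 18, 16, 17, 18, 19, 20, 21, 22]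

/-- the height level of an index: the Cartan part has level 11 -/
def hgtF (j : ℕ) : ℕ := hF.getD j 11

theorem hgtF_le : ∀ j < 52, hgtF j ≤ 22 := by decide

/-- the check that a column of a positive root element raises the height -/
def triOK (r c : ℕ) : Bool :=
  match xEntries chevF4 r c with
  | [] => false
  | x :: rest => (x == (c, 1, 0)) && rest.all (fun y => decide (hgtF c + 1 ≤ hgtF y.1))

theorem hgt_tri : ∀ r < 48, chevF4.IsPosRoot r → ∀ c < 52, triOK r c = true := by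
  decide +kernel

/-- the height level function -/
def hL : chevF4.Idx → ℕ := fun k => hgtF (ix chevF4 k)

theorem x_nilK' {F : Type*} [Field F] (r : ℕ) (hr : chevF4.IsPosRoot r) (t : F) :
    NilK hL 1 (chevF4.x F r t - 1) := by
  intro i k h
  have hok := hgt_tri r hr.1 hr (ix chevF4 k) (ix_lt chevF4 k)
  obtain ⟨rest, h1, h2⟩ : ∃ rest, xEntries chevF4 r (ix chevF4 k) = (ix chevF4 k, 1, 0) :: rest ∧
      ∀ x ∈ rest, hgtF (ix chevF4 k) + 1 ≤ hgtF x.1 := by
    unfold triOK at hok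
    cases hE : xEntries chevF4 r (ix chevF4 k) with
    | nil => rw [hE] at hok; simp at hok
    | cons a rest =>
      rw [hE] at hok
      simp only [Bool.and_eq_true, beq_iff_eq, List.all_eq_true, decide_eq_true_eq] at hok
      exact ⟨rest, by rw [hok.1], hok.2⟩
  have h3 : (chevF4.x F r t - 1) i k = evalE chevF4 t rest i := by
    rw [Matrix.sub_apply, x_apply r hr.1, h1, evalE_cons]
    simp only [Pi.add_apply, Pi.smul_apply, basisV, Int.cast_one, pow_zero, mul_one, smul_eq_mul]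
    by_cases hik : i = k
    · subst hik; simp
    · have : ix chevF4 i ≠ ix chevF4 k := fun e => hik (ix_injective chevF4 e)
      simp [this, Matrix.one_apply_ne hik]
  rw [h3] at h
  obtain ⟨x, hx, hix⟩ := evalE_ne_zero t rest i h
  have h4 := h2 x hx
  show hgtF (ix chevF4 k) + 1 ≤ hgtF (ix chevF4 i)
  rw [hix]; exact h4

theorem pos_le_uni' (F : Type*) [Field F] : chevF4.posUnipotent F ≤ uniGroup hL 1 := by
  have hS := (packF F).sem
  unfold ChevalleyDatum.posUnipotent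
  rw [Subgroup.closure_le]
  rintro g ⟨r, t, hr, hg⟩
  rw [eq_xU hS g r t hg]
  refine ⟨?_, ?_⟩
  · rw [xU_val]; exact x_nilK' r hr t
  · rw [xU_inv, xU_val]; exact x_nilK' r hr (-t)

/-- unipotent elements of `F₄` in characteristic 2 have order dividing 32 -/
theorem pow32 {K : Type*} [Field K] [CharP K 2] (u : GL chevF4.Idx K)
    (hu : u ∈ chevF4.posUnipotent K) : u ^ 32 = 1 := by
  have h1 : NilK hL 1 ((u : Matrix chevF4.Idx chevF4.Idx K) - 1) := (pos_le_uni' K hu).1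
  have hpow : ∀ n : ℕ, NilK hL n (((u : Matrix chevF4.Idx chevF4.Idx K) - 1) ^ n) := by
    intro n
    induction n with
    | zero =>
      intro i j hij
      rw [pow_zero] at hij
      have hijeq : i = j := by
        by_contra hne
        exact hij (Matrix.one_apply_ne hne)
      rw [hijeq]; omega
    | succ n ih => rw [pow_succ]; exact ih.mul h1
  have h32 : ((u : Matrix chevF4.Idx chevF4.Idx K) - 1) ^ 32 = 0 := by
    ext i j
    by_contra hne
    have h2 := hpow 32 i j hne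
    have h3 : hL i ≤ 22 := hgtF_le _ (ix_lt chevF4 i)
    omega
  have hne : Nonempty chevF4.Idx := ⟨Sum.inl ⟨0, by decide⟩⟩
  have hp2 : Fact (Nat.Prime 2) := ⟨Nat.prime_two⟩
  have hcm : CharP (Matrix chevF4.Idx chevF4.Idx K) 2 := Matrix.charP 2
  have hfrob := sub_pow_char_pow_of_commute 2 5
    (Commute.one_right (u : Matrix chevF4.Idx chevF4.Idx K))
  have e32 : (2 : ℕ) ^ 5 = 32 := by norm_num
  rw [e32, h32, one_pow] at hfrob
  apply Units.ext
  rw [Units.val_pow_eq_pow_val, Units.val_one]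
  exact (sub_eq_zero.mp hfrob.symm)

/-- an exponent bound on a Sylow 2-subgroup bounds all 2-elements -/
theorem exp_of_sylow' {G : Type*} [Group G] [Finite G] (P₀ : Subgroup G) (hP₀ : IsPGroup 2 P₀)
    (hidx : ¬ 2 ∣ P₀.index) (N : ℕ) (hN : ∀ y ∈ P₀, y ^ N = 1) (x : G) (j : ℕ)
    (hx : orderOf x = 2 ^ j) : x ^ N = 1 := by
  have hp2 : Fact (Nat.Prime 2) := ⟨Nat.prime_two⟩
  obtain ⟨P, hP⟩ : ∃ P : Sylow 2 G, (P : Subgroup G) = P₀ := ⟨hP₀.toSylow hidx, rfl⟩
  have hz : IsPGroup 2 ↥(Subgroup.zpowers x) :=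
    IsPGroup.of_card (by rw [Nat.card_zpowers]; exact hx)
  obtain ⟨Q, hQ⟩ := hz.exists_le_sylow
  obtain ⟨g, hg⟩ := MulAction.exists_smul_eq G P Q
  have hxQ : x ∈ (Q : Subgroup G) := hQ (Subgroup.mem_zpowers x)
  rw [← hg, Sylow.smul_def, Sylow.pointwise_smul_def,
    Subgroup.mem_pointwise_smul_iff_inv_smul_mem, hP] at hxQ
  have hy : g⁻¹ * x * g ∈ P₀ := by simpa [MulAut.smul_def] using hxQ
  have h1 := hN _ hy
  have e : x = g * (g⁻¹ * x * g) * g⁻¹ := by group
  rw [e, conj_pow, h1]; group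

namespace Ctx4

variable {K : Type*} [Field K] [CharP K 2] {e : ℕ} (C : Ctx4 K e)

include C

/-- elements of 2-power order of the twisted group have order at most 32 -/
theorem exp32 [Finite K] (hH : ¬ 2 ∣ Nat.card ↥(chevF4.diagonalSubgroup K ⊓ twistedF4 K e))
    (k : ℕ) (hk : Nat.card K = 2 ^ k) (hk0 : 0 < k) (x : ↥(twistedF4 K e)) (j : ℕ)
    (hx : orderOf x = 2 ^ j) : orderOf x ≤ 32 := by
  obtain ⟨P₀, hP₀def⟩ : ∃ P₀ : Subgroup ↥(twistedF4 K e),
      P₀ = (chevF4.posUnipotent K ⊓ twistedF4 K e).subgroupOf (twistedF4 K e) := ⟨_, rfl⟩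
  have hle : chevF4.posUnipotent K ⊓ twistedF4 K e ≤ twistedF4 K e := inf_le_right
  have hcP : Nat.card ↥P₀ = Nat.card K ^ 12 := by
    rw [hP₀def, Nat.card_congr (Subgroup.subgroupOfEquivOfLe hle).toEquiv]
    exact C.card_U1
  have hP₀ : IsPGroup 2 ↥P₀ := IsPGroup.of_card (n := k * 12) (by rw [hcP, hk, pow_mul])
  have hidx : ¬ 2 ∣ P₀.index := by
    have h1 := Subgroup.index_mul_card P₀
    rw [hcP, C.order_G1] at h1
    have hpos : 0 < Nat.card K ^ 12 := by rw [hk]; positivity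
    have h2 : P₀.index = Nat.card ↥(chevF4.diagonalSubgroup K ⊓ twistedF4 K e) *
        ∑ m : Fin 16, Nat.card K ^ expo (m : ℕ) :=
      Nat.eq_of_mul_eq_mul_right hpos (by rw [h1]; ring)
    rw [h2, expo_sum, Nat.Prime.dvd_mul Nat.prime_two]
    push Not
    refine ⟨hH, ?_⟩
    have hq2 : 2 ∣ Nat.card K := by rw [hk]; exact dvd_pow_self 2 hk0.ne'
    obtain ⟨c, hc⟩ := hq2
    obtain ⟨X, hX⟩ : ∃ X : ℕ, 1 + Nat.card K + Nat.card K ^ 2 + 2 * Nat.card K ^ 3 +
        Nat.card K ^ 4 + Nat.card K ^ 5 + 2 * Nat.card K ^ 6 + Nat.card K ^ 7 + Nat.card K ^ 8 +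
        2 * Nat.card K ^ 9 + Nat.card K ^ 10 + Nat.card K ^ 11 + Nat.card K ^ 12 = 1 + 2 * X :=
      ⟨c * (1 + Nat.card K + 2 * Nat.card K ^ 2 + Nat.card K ^ 3 + Nat.card K ^ 4 +
        2 * Nat.card K ^ 5 + Nat.card K ^ 6 + Nat.card K ^ 7 + 2 * Nat.card K ^ 8 +
        Nat.card K ^ 9 + Nat.card K ^ 10 + Nat.card K ^ 11), by
        have e1 : 2 * (c * (1 + Nat.card K + 2 * Nat.card K ^ 2 + Nat.card K ^ 3 +
            Nat.card K ^ 4 + 2 * Nat.card K ^ 5 + Nat.card K ^ 6 + Nat.card K ^ 7 +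
            2 * Nat.card K ^ 8 + Nat.card K ^ 9 + Nat.card K ^ 10 + Nat.card K ^ 11)) =
            Nat.card K * (1 + Nat.card K + 2 * Nat.card K ^ 2 + Nat.card K ^ 3 +
            Nat.card K ^ 4 + 2 * Nat.card K ^ 5 + Nat.card K ^ 6 + Nat.card K ^ 7 +
            2 * Nat.card K ^ 8 + Nat.card K ^ 9 + Nat.card K ^ 10 + Nat.card K ^ 11) := by
          rw [← mul_assoc, ← hc]
        rw [e1]; ring⟩
    rw [hX]
    omega
  have hN : ∀ y ∈ P₀, y ^ 32 = 1 := by
    intro y hy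
    rw [hP₀def, Subgroup.mem_subgroupOf] at hy
    apply Subtype.ext
    rw [Subgroup.coe_pow]
    exact pow32 _ hy.1
  have h32 := exp_of_sylow' P₀ hP₀ hidx 32 hN x j hx
  exact Nat.le_of_dvd (by norm_num) (orderOf_dvd_of_pow_eq_one h32)

end Ctx4

end Cfsg.Agent.H22.TF4
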